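import Cfsg.Agent.QP.U

/-! Systems of quadratic endomorphisms. -/
namespace QP
open Cfsg RS Submodule Module LinearMap

variable {k M : Type*} [Field k] [AddCommGroup M] [Module k M]

/-- rank -/
noncomputable def rk (x : End k M) : ℕ := finrank k (range x)

/-- `y` is injective on the image of `x` -/
def Inj (y x : End k M) : Prop := ∀ m, y (x m) = 0 → x m = 0

/-- the unit `1 + s` -/
def un (s : End k M) (h : s * s = 0) : (End k M)ˣ :=
  ⟨1 + s, 1 - s, by simp [mul_sub, add_mul, h], by simp [mul_add, sub_mul, h]⟩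

/-- quadratic system -/
structure QS (G : Subgroup (End k M)ˣ) (Q : Set (End k M)) : Prop where
  irr : IsIrreducibleFor G
  h2 : ringChar k ≠ 2
  h3 : Nat.card k ≠ 3
  zero : 0 ∈ Q
  sq : ∀ s ∈ Q, s * s = 0
  smul : ∀ s ∈ Q, ∀ β : k, β • s ∈ Q
  add : ∀ s ∈ Q, ∀ t ∈ Q, s * t = 0 → t * s = 0 → s + t ∈ Q
  mem : ∀ s ∈ Q, ∀ g : (End k M)ˣ, g.1 = 1 + s → g ∈ G
  conj : ∀ g ∈ G, ∀ s ∈ Q, g.1 * s * (g⁻¹).1 ∈ Q

/-- minimal elements -/
def Mn (Q : Set (End k M)) : Set (End k M) := {s | s ∈ Q ∧ s ≠ 0 ∧ ∀ t ∈ Q, t ≠ 0 → rk s ≤ rk t}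

variable {G : Subgroup (End k M)ˣ} {Q : Set (End k M)} {s t u x y z : End k M}

theorem Inj.eq (h : Inj y x) (e : y * (x * z) = 0) : x * z = 0 :=
  LinearMap.ext fun m => h _ (LinearMap.congr_fun e m)

theorem Inj.pow (h : Inj y x) (c : y * x = x * y) (n : ℕ) : Inj (y ^ n) x := by
  induction n with
  | zero => exact fun m i => i
  | succ n ih =>
    refine fun m i => h m ?_
    rw [← End.mul_apply, c]
    exact ih _ (by rwa [← End.mul_apply x, ← c, End.mul_apply, ← End.mul_apply _ y, ← pow_succ])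

variable [FiniteDimensional k M]

theorem rk_eq (x y : End k M) : rk x = rk (y * x) + finrank k (range x ⊓ ker y :) := by
  have := (y.domRestrict (range x)).finrank_range_add_finrank_ker
  rw [range_domRestrict, ker_domRestrict, ← finrank_map_subtype_eq, map_comap_subtype, ← range_comp] at this
  exact this.symm

theorem rk_le (x y : End k M) : rk (y * x) ≤ rk x := rk_eq x y ▸ Nat.le_add_right _ _

theorem rk_le' (x y : End k M) : rk (x * y) ≤ rk x := finrank_mono (range_comp_le_range _ _)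

theorem inj_of (h : rk x ≤ rk (y * x)) : Inj y x := fun m i => by
  have := rk_eq x y
  exact (mem_bot k).1 ((finrank_eq_zero.1 (by omega : finrank k (range x ⊓ ker y :) = 0)).le ⟨⟨m, rfl⟩, i⟩)

theorem Inj.rk (h : Inj y x) : rk (y * x) = rk x := by
  rw [rk_eq x y, eq_bot_iff.2 (by rintro _ ⟨⟨m, rfl⟩, i⟩; exact h m i : range x ⊓ ker y ≤ ⊥)]; simp

theorem rk_conj (g : (End k M)ˣ) (x : End k M) : rk (g.1 * x * (g⁻¹).1) = rk x :=
  le_antisymm ((rk_le' _ _).trans (rk_le _ _)) (by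
    simpa [mul_assoc] using (rk_le' _ g.1).trans (rk_le (g.1 * x * (g⁻¹).1) (g⁻¹).1))

namespace QS

omit [FiniteDimensional k M] in
theorem two (h : QS G Q) : (2 : k) ≠ 0 := Ring.two_ne_zero h.h2

omit [FiniteDimensional k M] in
theorem neg (h : QS G Q) (hs : s ∈ Q) : -s ∈ Q := by simpa using h.smul s hs (-1)

omit [FiniteDimensional k M] in
theorem sub (h : QS G Q) (hs : s ∈ Q) (ht : t ∈ Q) (e : s * t = 0) (e' : t * s = 0) : s - t ∈ Q := by
  simpa [sub_eq_add_neg] using h.add s hs _ (h.neg ht) (by simp [e]) (by simp [e'])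

omit [FiniteDimensional k M] in
theorem of_smul (h : QS G Q) {β : k} (b : β ≠ 0) (hs : β • s ∈ Q) : s ∈ Q := by
  simpa [smul_smul, b] using h.smul _ hs β⁻¹

omit [FiniteDimensional k M] in
theorem cj (h : QS G Q) (hs : s ∈ Q) (ht : t ∈ Q) : (1 + s) * t * (1 - s) ∈ Q :=
  h.conj (un s (h.sq s hs)) (h.mem s hs _ rfl) t ht

theorem mn_of (ht : t ∈ Mn Q) (hx : x ∈ Q) (x0 : x ≠ 0) (l : rk x ≤ rk t) : x ∈ Mn Q :=
  ⟨hx, x0, fun u i j => l.trans (ht.2.2 u i j)⟩

theorem conjm (h : QS G Q) {g} (hg : g ∈ G) (ht : t ∈ Mn Q) : g.1 * t * (g⁻¹).1 ∈ Mn Q :=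
  mn_of ht (h.conj g hg t ht.1) (by simpa using ht.2.1) (rk_conj g t).le

theorem cjm (h : QS G Q) (hs : s ∈ Q) (ht : t ∈ Mn Q) : (1 + s) * t * (1 - s) ∈ Mn Q :=
  h.conjm (g := un s (h.sq s hs)) (h.mem s hs _ rfl) ht

theorem dich (ht : t ∈ Mn Q) (hx : y * t ∈ Q) : y * t = 0 ∨ Inj y t :=
  (em _).imp_right fun e => inj_of (ht.2.2 _ hx e)

omit [FiniteDimensional k M] in
theorem comm (h : QS G Q) (hs : s ∈ Q) (ht : t ∈ Q) (e : t * (s * t) = 0) (e' : s * (t * s) = 0) :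
    s * t - t * s ∈ Q := by
  have tt := h.sq t ht
  have tt' : ∀ x, t * (t * x) = 0 := fun x => by rw [← mul_assoc, tt, zero_mul]
  have := h.sub (h.cj hs ht) ht (by simp [mul_sub, sub_mul, add_mul, mul_assoc, tt, e])
    (by simp [mul_sub, add_mul, mul_add, mul_assoc, tt, tt', e, e'])
  convert this using 1
  simp [mul_sub, add_mul, mul_assoc, e']; abel

theorem comm' (h : QS G Q) (hs : s ∈ Q) (ht : t ∈ Mn Q) (e : t * (s * t) = 0) (e' : s * (t * s) = 0)
    (n : s * t - t * s ≠ 0) : s * t - t * s ∈ Mn Q ∧ range t ⊓ ker s = range (t * s) ∧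
      range (s * t) ⊓ range (t * s) = ⊥ ∧ range (s * t - t * s) = range (s * t) ⊔ range (t * s) := by
  have q := h.comm hs ht.1 e e'
  have a1 := ht.2.2 _ q n
  have a2 := rk_eq t s
  have l3 : range (t * s) ≤ range t ⊓ ker s := by
    rintro _ ⟨m, rfl⟩; exact ⟨⟨_, rfl⟩, LinearMap.congr_fun e' m⟩
  have a3 : rk (t * s) ≤ _ := finrank_mono l3
  have l4 : range (s * t - t * s) ≤ range (s * t) ⊔ range (t * s) := by
    rintro _ ⟨m, rfl⟩; exact sub_mem (mem_sup_left ⟨m, rfl⟩) (mem_sup_right ⟨m, rfl⟩)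
  have a4 : rk _ ≤ _ := finrank_mono l4
  have a5 : _ + _ = rk _ + rk _ := finrank_sup_add_finrank_inf_eq (range (s * t)) (range (t * s))
  exact ⟨mn_of ht q n (by omega), (eq_of_le_of_finrank_le l3 (by change _ ≤ rk _; omega)).symm,
    finrank_eq_zero.1 (by omega), eq_of_le_of_finrank_le l4 (by change _ ≤ rk _; omega)⟩

theorem nil (h : QS G Q) (n : ℕ) : ∀ {s t}, s ∈ Q → t ∈ Mn Q → (s * t + t * s) ^ n = 0 → t * (s * t) = 0 := by
  induction n using Nat.strong_induction_on with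
  | _ n ih =>
  intro s t hs ht hn
  have ss := h.sq s hs
  have tt := h.sq t ht.1
  have ss' : ∀ x, s * (s * x) = 0 := fun x => by rw [← mul_assoc, ss, zero_mul]
  have tt' : ∀ x, t * (t * x) = 0 := fun x => by rw [← mul_assoc, tt, zero_mul]
  have ct : (s * t + t * s) * t = t * (s * t) := by simp [add_mul, mul_assoc, tt]
  rcases n with _ | _ | n
  · rw [← ct, ← mul_one t, ← pow_zero (s * t + t * s), hn]; simp
  · rw [← ct, ← pow_one (s * t + t * s), hn]; simp
  have k1 : ∀ s ∈ Q, (s * t + t * s) ^ (n + 2) = 0 → t * (s * (t * (s * t))) = 0 ∧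
      (2 : k) • (t * (s * t)) + (s * (t * (s * t)) - t * (s * (t * s))) ∈ Q := fun s hs hn => by
    have ss := h.sq s hs
    have ss' : ∀ x, s * (s * x) = 0 := fun x => by rw [← mul_assoc, ss, zero_mul]
    have i := h.cjm hs ht
    have e : ((1 + s) * t * (1 - s) * t + t * ((1 + s) * t * (1 - s))) ^ (n + 1) = 0 := by
      rw [show (1 + s) * t * (1 - s) * t + t * ((1 + s) * t * (1 - s)) = -(s * t + t * s) ^ 2 by
        simp [pow_two, mul_add, add_mul, mul_sub, sub_mul, mul_assoc, ss, tt, ss', tt']; abel,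
        neg_pow, ← pow_mul, pow_eq_zero_of_le (by omega) hn, mul_zero]
    have e1 := ih _ (by omega) i.1 ht e
    have e2 := ih _ (by omega) ht.1 i (add_comm (t * _) _ ▸ e)
    refine ⟨by simpa [mul_add, add_mul, mul_sub, sub_mul, mul_assoc, ss, tt, ss', tt'] using e1, ?_⟩
    convert h.comm ht.1 i.1 e2 e1 using 1
    simp [mul_add, add_mul, mul_sub, sub_mul, mul_assoc, ss, tt, ss', tt']; module
  obtain ⟨e, i⟩ := k1 s hs hn
  obtain ⟨-, j⟩ := k1 _ (h.neg hs) (by rw [neg_mul, mul_neg, ← neg_add, neg_pow, hn, mul_zero])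
  have e' : ∀ x, t * (s * (t * (s * (t * x)))) = 0 := fun x => by simpa [mul_assoc] using congrArg (· * x) e
  have : (s * t + t * s) * t ∈ Q := h.of_smul (mul_ne_zero h.two h.two) (by
    convert h.sub i j (by simp [mul_add, add_mul, mul_sub, sub_mul, mul_assoc, ss, tt, ss', tt', e, e'])
      (by simp [mul_add, add_mul, mul_sub, sub_mul, mul_assoc, ss, tt, ss', tt', e, e']) using 1
    simp [ct]; module)
  refine ct ▸ (dich ht this).resolve_right fun l => ht.2.1 ?_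
  simpa [hn] using (l.pow (by simp [mul_add, add_mul, mul_assoc, tt, tt']) (n + 2)).eq (z := 1)

end QS

end QP
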