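import Cfsg.Agent.QP.G
import Cfsg.Agent.RS.Sp3

/-! Transfer to subgroups, components. -/
namespace QP
open Cfsg RS Submodule Module LinearMap Relation
open scoped commutatorElement

section
variable {Γ H : Type*} [Group Γ] [Group H] {f : Γ →* H} {A B : Subgroup Γ}

theorem cond_map (hf : Function.Injective f) : RankOneCondition (A.map f) (B.map f) ↔ RankOneCondition A B := by
  simp only [RankOneCondition, Subgroup.mem_map, forall_exists_index, and_imp, forall_apply_eq_imp_iff₂,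
    exists_exists_and_eq_and, ← map_inv, ← map_cj, (Subgroup.map_injective hf).eq_iff, map_ne_one_iff f hf]

theorem r1_map (hf : Function.Injective f) : R1 (A.map f) (B.map f) ↔ R1 A B := by
  have : ∀ A : Subgroup Γ, Group.IsNilpotent (A.map f) ↔ Group.IsNilpotent A := fun A =>
    ⟨fun _ => nilpotent_of_mulEquiv (A.equivMapOfInjective f hf).symm,
      fun _ => nilpotent_of_mulEquiv (A.equivMapOfInjective f hf)⟩
  exact ⟨fun h => ⟨fun e => h.1 (by rw [e]), (this _).1 h.2, (this _).1 h.3, (cond_map hf).1 h.4, (cond_map hf).1 h.5⟩,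
    fun h => ⟨(Subgroup.map_injective hf).ne h.1, (this _).2 h.2, (this _).2 h.3, (cond_map hf).2 h.4, (cond_map hf).2 h.5⟩⟩

theorem sp_of_map (hf : Function.Injective f) (h : Sp (A.map f) (B.map f)) : Sp A B :=
  ⟨(r1_map hf).1 h.1, fun a i a1 b j b1 e => hf (by
    simpa using h.2 _ (Subgroup.mem_map_of_mem f i) ((map_ne_one_iff f hf).2 a1) _ (Subgroup.mem_map_of_mem f j)
      ((map_ne_one_iff f hf).2 b1) (by rw [← map_inv, ← map_inv, ← map_cj, ← map_cj, e]))⟩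

theorem comm_map (hf : Function.Injective f) : ⁅A.map f, B.map f⁆ = ⊥ ↔ ⁅A, B⁆ = ⊥ := by
  rw [← Subgroup.map_commutator, Subgroup.map_eq_bot_iff_of_injective _ hf]

theorem t3_of_map (hf : Function.Injective f) {S : Set (Subgroup H)} (h : T3 S (A.map f) (B.map f)) :
    T3 {C | C.map f ∈ S} A B := by
  refine ⟨by simpa only [Set.mem_setOf_eq, Subgroup.map_commutator] using h.mem,
    (comm_map hf).1 (Subgroup.map_commutator A B f ▸ h.cA), (comm_map hf).1 (Subgroup.map_commutator A B f ▸ h.cB),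
    fun a i a1 c j => ?_, fun a i a1 c j => ?_⟩
  · obtain ⟨_, ⟨b, l, rfl⟩, e⟩ := h.sA _ (Subgroup.mem_map_of_mem f i) ((map_ne_one_iff f hf).2 a1) _
      (Subgroup.map_commutator A B f ▸ Subgroup.mem_map_of_mem f j)
    exact ⟨b, l, hf (by rwa [map_commutatorElement])⟩
  · obtain ⟨_, ⟨b, l, rfl⟩, e⟩ := h.sB _ (Subgroup.mem_map_of_mem f i) ((map_ne_one_iff f hf).2 a1) _
      (Subgroup.map_commutator A B f ▸ Subgroup.mem_map_of_mem f j)
    exact ⟨b, l, hf (by rwa [map_commutatorElement])⟩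

/-- relative root sets -/
structure Ri (S : Set (Subgroup H)) : Prop where
  ab : ∀ A ∈ S, ⁅A, A⁆ = ⊥
  ne : ∀ A ∈ S, A ≠ ⊥
  cj : ∀ A ∈ S, ∀ g ∈ ⨆ B ∈ S, B, conjBy A g ∈ S
  tri : ∀ A ∈ S, ∀ B ∈ S, ⁅A, B⁆ = ⊥ ∨ R1 A B ∨ T3 S A B

variable {S : Set (Subgroup H)}

theorem image_eq : (fun A : Subgroup H => A.subgroupOf (⨆ B ∈ S, B)) '' S = {C | C.map (⨆ B ∈ S, B).subtype ∈ S} := by
  ext C
  refine ⟨?_, fun i => ⟨_, i, Subgroup.comap_map_eq_self_of_injective (Subgroup.subtype_injective _) C⟩⟩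
  rintro ⟨A, i, rfl⟩
  rwa [Set.mem_setOf_eq, Subgroup.map_subgroupOf_eq_of_le (le_iSup₂_of_le A i le_rfl)]

theorem Ri.rt (h : Ri S) : Rt {C : Subgroup ↥(⨆ B ∈ S, B) | C.map (⨆ B ∈ S, B).subtype ∈ S} := by
  have hf := (⨆ B ∈ S, B).subtype_injective
  refine ⟨fun A i => ⟨⟨fun a b => Subtype.ext (cen_of ((comm_map hf).1 (h.ab _ i)) a.2 b.2)⟩⟩,
    fun A i e => h.ne _ i (by simp [e]), ?_, fun A i g => ?_, fun A i B j => (h.tri _ i _ j).imp (comm_map hf).1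
      (.imp (r1_map hf).1 fun t => (t3_of_map hf t).rc)⟩
  · rw [← image_eq, iSup_image, ← Subgroup.subgroupOf_self]
    refine Subgroup.map_injective hf ?_
    simp only [Subgroup.map_iSup, Subgroup.subgroupOf_map_subtype, inf_idem]
    exact iSup_congr fun A => iSup_congr fun i => inf_eq_left.2 (le_iSup₂_of_le A i le_rfl)
  · rw [Set.mem_setOf_eq, map_cj]
    exact h.cj _ i _ g.2

theorem sub_mem {A : Subgroup H} (i : A ∈ S) : ∃ C : Subgroup ↥(⨆ B ∈ S, B), C.map (⨆ B ∈ S, B).subtype = A :=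
  ⟨_, Subgroup.map_subgroupOf_eq_of_le (le_iSup₂_of_le A i le_rfl)⟩

theorem path_map (hf : Function.Injective f) (p : ReflTransGen (FAdj {C | C.map f ∈ S}) A B) :
    ReflTransGen (FAdj S) (A.map f) (B.map f) :=
  p.lift (Subgroup.map f) fun _ _ e => ⟨e.1, e.2.1, (r1_map hf).2 e.2.2⟩

theorem Ri.ni (hN : ∀ A ∈ S, NI S A) :
    ∀ A ∈ {C : Subgroup ↥(⨆ B ∈ S, B) | C.map (⨆ B ∈ S, B).subtype ∈ S}, NI {C | C.map (⨆ B ∈ S, B).subtype ∈ S} A :=
  fun A i => by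
  obtain ⟨-, B, j, r⟩ := hN _ i
  obtain ⟨B, rfl⟩ := sub_mem j
  exact ⟨i, B, j, (r1_map (Subgroup.subtype_injective _)).1 r⟩

theorem Ri.path (h : Ri S) (hN : ∀ A ∈ S, NI S A) {A : Subgroup H} (i : A ∈ S) :
    (∀ g ∈ ⨆ B ∈ S, B, ReflTransGen (FAdj S) A (conjBy A g)) ∧
      ∀ B ∈ S, T3 S A B → ReflTransGen (FAdj S) A ⁅A, B⁆ ∧ ReflTransGen (FAdj S) ⁅A, B⁆ A := by
  have hf := (⨆ B ∈ S, B).subtype_injective
  obtain ⟨A, rfl⟩ := sub_mem i
  refine ⟨fun g hg => ?_, fun B j t => ?_⟩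
  · simpa only [map_cj, Subgroup.subtype_apply] using path_map hf (h.rt.conn (Ri.ni hN) i ⟨g, hg⟩)
  · obtain ⟨B, rfl⟩ := sub_mem j
    have t' := t3_of_map hf t
    rw [← Subgroup.map_commutator]
    exact ⟨path_map hf (h.rt.not_ln (Ri.ni hN A i) (Ri.ni hN _ t'.mem) (h.rt.ln' (Ri.ni hN A i) t')),
      path_map hf (h.rt.not_ln (Ri.ni hN _ t'.mem) (Ri.ni hN A i) (h.rt.ln (Ri.ni hN A i) t'))⟩

end

variable {k M : Type*} [Field k] [AddCommGroup M] [Module k M] [FiniteDimensional k M]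
variable {G : Subgroup (End k M)ˣ} {Q : Set (End k M)} {s t u x y q : End k M} {g σ : (End k M)ˣ}
  {A B : Subgroup (End k M)ˣ}

namespace QS

theorem card_k (h : QS G Q) : 3 < ENat.card k := by
  obtain ⟨z, z0, z1⟩ := exists_z h
  have n : (1 : k) ≠ -1 := fun e => h.two (by linear_combination e)
  rw [ne_eq, sq_eq_one_iff, not_or] at z1
  refine lt_of_lt_of_le ?_ (Set.encard_le_card (s := {z, 0, 1, -1}))
  rw [Set.encard_insert_of_notMem (by simp [*]), Set.encard_insert_of_notMem (by simp), Set.encard_pair n]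
  decide

omit [FiniteDimensional k M] in
theorem ab (h : QS G Q) (hA : A ∈ h.Sg) : ⁅A, A⁆ = ⊥ := by obtain ⟨_, -, rfl⟩ := hA; exact h.EG_ab

omit [FiniteDimensional k M] in
theorem le_G (h : QS G Q) (hA : A ∈ h.Sg) : A ≤ G := by obtain ⟨_, -, rfl⟩ := hA; exact h.EG_le

theorem card_EG (h : QS G Q) (hA : A ∈ h.Sg) : 3 < ENat.card A := by
  obtain ⟨s, hs, rfl⟩ := hA
  exact h.card_k.trans_le (ENat.card_le_card_of_injective (f := fun c =>
    ⟨_, h.un_mem (smul_mem _ c (h.self hs.1))⟩) fun a b e => smul_left_injective k hs.2.1 (by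
      simpa [Units.ext_iff] using e))

theorem cjS (h : QS G Q) (hA : A ∈ h.Sg) (hg : g ∈ G) : conjBy A g ∈ h.Sg := by
  obtain ⟨s, hs, rfl⟩ := hA
  exact ⟨_, h.conjm hg hs, h.cj_EG hg⟩

theorem ri (h : QS G Q) : Ri h.Sg :=
  ⟨fun _ => h.ab, by
    rintro _ ⟨s, hs, rfl⟩ e
    exact hs.2.1 ((un_eq_one _).1 (e.le (h.un_mem (h.self hs.1)))),
    fun A i g j => h.cjS i (iSup₂_le (f := fun A (_ : A ∈ h.Sg) => A) (fun _ => h.le_G) j),
    fun A i B j => (h.tri i j).elim (fun e => e.2.imp_right .inr) fun e => .inr (.inl e.2.r1)⟩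

theorem ni (h : QS G Q) (A) (hA : A ∈ h.Sg) : NI h.Sg A := by
  obtain ⟨s, hs, rfl⟩ := id hA
  obtain ⟨u, hu, e, -⟩ := h.exists_opp hs
  exact ⟨hA, _, ⟨u, hu, rfl⟩, (h.special hs hu (e.symm ▸ hs.2.1)).r1⟩

theorem eq_of_mem (h : QS G Q) (hA : A ∈ h.Sg) (hB : B ∈ h.Sg) (i : g ∈ A) (j : g ∈ B) (g1 : g ≠ 1) : A = B := by
  obtain ⟨s, hs, rfl⟩ := hA
  obtain ⟨t, ht, rfl⟩ := hB
  have : g.1 - 1 ≠ 0 := by rwa [ne_eq, sub_eq_zero, Units.val_eq_one]
  rw [← h.EG_eq hs i this, h.EG_eq ht j this]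

theorem sp_of (h : QS G Q) (hA : A ∈ h.Sg) (hB : B ∈ h.Sg) (r : R1 A B) : Sp A B := by
  refine ((h.tri hA hB).resolve_left fun e => e.2.elim r.not_comm fun t => ?_).2
  obtain ⟨a, i, a1⟩ := exists_ne_one r.ne_bot
  exact (r.cj_pair i a1).not_comm (comm_mono (comm_sup (h.ab hB) (comm_symm t.symm.cA)) le_rfl (cj_le_comm i))

end QS

end QP
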