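import Cfsg.Agent.QP.S
import Cfsg.Agent.RS.Qs

/-! Decomposition into components. -/
namespace QP
open Cfsg RS Submodule Module LinearMap Relation
open scoped commutatorElement

section
variable {H : Type*} [Group H] {S : Set (Subgroup H)} {A B C : Subgroup H}

/-- component -/
abbrev Cp (S : Set (Subgroup H)) (A : Subgroup H) := componentOf (FAdj S) S A

theorem path_symm (p : ReflTransGen (FAdj S) A B) : ReflTransGen (FAdj S) B A :=
  by
  induction p with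
  | refl => rfl
  | tail _ e ih => exact ih.head ⟨e.2.1, e.1, R1.symm e.2.2⟩

theorem Cp_eq (i : B ∈ Cp S A) : Cp S B = Cp S A :=
  Set.ext fun _ => and_congr_right fun _ => ⟨i.2.trans, (path_symm i.2).trans⟩

theorem Cp.ni (hN : ∀ A ∈ S, NI S A) (B) (i : B ∈ Cp S A) : NI (Cp S A) B :=
  have ⟨_, C, j, r⟩ := hN B i.1
  ⟨i, C, ⟨j, i.2.tail ⟨i.1, j, r⟩⟩, r⟩

theorem Ri.cp (h : Ri S) (hN : ∀ A ∈ S, NI S A) : Ri (Cp S A) := by
  have l : (⨆ B ∈ Cp S A, B) ≤ ⨆ B ∈ S, B := iSup₂_le fun B i => le_iSup₂_of_le B i.1 le_rfl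
  exact ⟨fun B i => h.ab B i.1, fun B i => h.ne B i.1, fun B i g j => ⟨h.cj B i.1 g (l j),
    i.2.trans ((h.path hN i.1).1 g (l j))⟩, fun B i C j => (h.tri B i.1 C j.1).imp_right (.imp_right fun t =>
      ⟨⟨t.mem, i.2.trans ((h.path hN i.1).2 C j.1 t).1⟩, t.cA, t.cB, t.sA, t.sB⟩)⟩

theorem Ri.comm (h : Ri S) (hN : ∀ A ∈ S, NI S A) (n : Cp S A ≠ Cp S B) :
    ⁅⨆ C ∈ Cp S A, C, ⨆ C ∈ Cp S B, C⁆ = ⊥ := by
  rw [Subgroup.commutator_eq_bot_iff_le_centralizer, iSup₂_le_iff]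
  intro C i
  rw [Subgroup.le_centralizer_iff, iSup₂_le_iff]
  intro D j
  rw [← Subgroup.commutator_eq_bot_iff_le_centralizer]
  refine (h.tri D j.1 C i.1).resolve_right fun e => n ?_
  rw [← Cp_eq i, ← Cp_eq j]
  refine Cp_eq ⟨i.1, e.elim (fun r => .single ⟨j.1, i.1, r⟩) fun t => ((h.path hN j.1).2 C i.1 t).1.trans ?_⟩
  rw [Subgroup.commutator_comm]
  exact ((h.path hN i.1).2 D j.1 t.symm).2

theorem Ri.cl (h : Ri S) (hN : ∀ A ∈ S, NI S A) (hA : A ∈ S) :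
    Cl {C : Subgroup ↥(⨆ B ∈ Cp S A, B) | C.map (⨆ B ∈ Cp S A, B).subtype ∈ Cp S A} := by
  obtain ⟨A', e⟩ := sub_mem (S := Cp S A) ⟨hA, .refl⟩
  have : ∀ B, ReflTransGen (FAdj S) A B → ∀ C : Subgroup ↥(⨆ B ∈ Cp S A, B), C.map (⨆ B ∈ Cp S A, B).subtype = B →
      ∃ g, C = conjBy A' g := fun B p => by
    induction p with
    | refl => exact fun C i => ⟨1, by rw [cj_one, Subgroup.map_injective (Subgroup.subtype_injective _) (i.trans e.symm)]⟩
    | @tail B C p q ih =>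
      rintro C rfl
      obtain ⟨B, rfl⟩ := sub_mem (S := Cp S A) ⟨q.1, p⟩
      obtain ⟨g, rfl⟩ := ih B rfl
      obtain ⟨w, -, e, -⟩ := R1.exists_swap ((r1_map (Subgroup.subtype_injective _)).1 q.2.2)
      exact ⟨w * g, by rw [← cj_cj, e]⟩
  refine ⟨(h.cp hN).rt, ⟨A', by rw [Set.mem_setOf_eq, e]; exact ⟨hA, .refl⟩⟩, fun B i C j => ?_⟩
  obtain ⟨g, rfl⟩ := this _ i.2 B rfl
  obtain ⟨g', rfl⟩ := this _ j.2 C rfl
  exact ⟨g' * g⁻¹, by simp [cj_cj]⟩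

end

variable {k M : Type*} [Field k] [AddCommGroup M] [Module k M] [FiniteDimensional k M]
variable {G : Subgroup (End k M)ˣ} {Q : Set (End k M)} {s t u x y q : End k M} {g σ : (End k M)ˣ}
  {A B : Subgroup (End k M)ˣ}

theorem fin_of_comm {I : Type*} {F : I → Subgroup (End k M)ˣ} (c : ∀ i j, i ≠ j → ⁅F i, F j⁆ = ⊥)
    (n : ∀ i, ⁅F i, F i⁆ ≠ ⊥) : Finite I := by
  simp only [ne_eq, comm_iff, not_forall] at n
  choose a ha b hb n using n
  refine LinearIndependent.finite (R := k) (f := fun i => (a i).1) (linearIndependent_iff'.2 fun s g e i hi => ?_)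
  have := congrArg (fun x => x * (b i).1 - (b i).1 * x) e
  simp only [Finset.sum_mul, Finset.mul_sum, ← Finset.sum_sub_distrib, smul_mul_assoc, mul_smul_comm, ← smul_sub] at this
  rw [Finset.sum_eq_single_of_mem i hi fun j _ l => by
    rw [← Units.val_mul, cen_of (c j i l) (ha j) (hb i), Units.val_mul, sub_self, smul_zero]] at this
  simpa [sub_eq_zero, ← Units.val_mul, Units.val_inj, n i] using this

namespace QS

theorem cent (h : QS G Q) (hs : s ∈ Q) (e : ∀ t ∈ Mn Q, t * (s * t) = 0) (ht : t ∈ Mn Q) : s * t = t * s := by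
  have z : ∀ y ∈ Q, rk y ≤ rk t → (∀ t ∈ Mn Q, t * (y * t) = 0) → y = 0 := fun y i l j => by
    by_contra n
    obtain ⟨u, hu, -, e⟩ := h.exists_opp (mn_of ht i n l)
    exact hu.2.1 (e ▸ j u hu)
  have c : ∀ y ∈ Q, ∀ t ∈ Mn Q, t * ((1 + y) * s * (1 - y) * t) = 0 := fun y i t j => by
    have := congrArg ((un y (h.sq y i)).1 * · * (un y (h.sq y i))⁻¹.1) (e _ (h.conjm (inv_mem (h.mem y i (un y (h.sq y i)) rfl)) j))
    simp only [inv_inv, mul_assoc, Units.mul_inv_cancel_left, Units.mul_inv, mul_one, mul_zero, zero_mul] at this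
    simpa only [mul_assoc, un_val, un_inv] using this
  have ss := h.sq s hs
  have tt := h.sq t ht.1
  have e0 := e t ht
  have a1 : ∀ x, s * (s * x) = 0 := fun x => by rw [← mul_assoc, ss, zero_mul]
  have a2 : ∀ x, t * (t * x) = 0 := fun x => by rw [← mul_assoc, tt, zero_mul]
  have a3 : ∀ x, t * (s * (t * x)) = 0 := fun x => by simpa [mul_assoc] using congrArg (· * x) e0
  have y : s * t - t * s ∈ Q := h.of_smul h.two (by
    convert h.sub (h.cj hs ht.1) (h.cj (h.neg hs) ht.1) ?_ ?_ using 1 <;>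
      simp [mul_add, add_mul, mul_sub, sub_mul, mul_assoc, ss, tt, a1, a2, a3, e0]
    module)
  have w : s * (t * s) = 0 := z _ (by
    convert h.sub (h.add _ ht.1 _ y ?_ ?_) (h.cj hs ht.1) ?_ ?_ using 1 <;>
      simp [mul_add, add_mul, mul_sub, sub_mul, mul_assoc, ss, tt, a1, a2, a3, e0]
    abel) ((rk_le _ _).trans (rk_le' _ _)) fun u j => by
      have := c _ y u j
      simp [mul_add, add_mul, mul_sub, sub_mul, mul_assoc, ss, tt, a1, a2, a3, e0, e u j] at this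
      exact (smul_eq_zero_iff_right h.two).1 (by simp only [mul_assoc]; linear_combination (norm := module) this)
  by_contra n
  have := (h.comm' hs ht e0 w (sub_ne_zero.2 n)).1
  refine this.2.1 (z _ y (this.2.2 t ht.1 ht.2.1) fun u j => ?_)
  have := c _ ht.1 u j
  simp [mul_add, add_mul, mul_sub, sub_mul, mul_assoc, a3, e u j] at this ⊢
  linear_combination (norm := abel) -this

theorem decomp (h : QS G Q) (hs : s ∈ Q) : (∀ t ∈ Mn Q, s * t = t * s) ∨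
    ∃ x ∈ Mn Q, s - x ∈ Q ∧ rk (s - x) < rk s ∧ (s - x) * x = 0 := by
  refine (em _).imp (fun e t => h.cent hs e) fun n => ?_
  push Not at n
  obtain ⟨t, ht, n⟩ := n
  obtain ⟨u, hu, -, -, x, i, x0, j⟩ := h.split ht hs n
  exact ⟨x, (h.mn hu i x0).1, j⟩

theorem cent_mem (h : QS G Q) (e : ∀ t ∈ Mn Q, s * t = t * s) (hg : g.1 = 1 + s) :
    g ∈ Subgroup.centralizer ((⨆ A ∈ h.Sg, A :) : Set (End k M)ˣ) := by
  rw [← Subgroup.zpowers_le, Subgroup.le_centralizer_iff, iSup₂_le_iff]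
  rintro _ ⟨t, ht, rfl⟩ a i
  rw [Subgroup.zpowers_eq_closure, Subgroup.centralizer_closure, Subgroup.mem_centralizer_singleton_iff]
  obtain ⟨x, j, rfl⟩ := h.ex i
  by_cases x0 : x = 0
  · simp [(un_eq_one _).2 x0]
  · exact Units.ext (by simp [hg, mul_add, add_mul, e x (h.mn ht j x0).1]; abel)

theorem norm_cent (h : QS G Q) (hB : B ∈ h.Sg) {N : Subgroup (End k M)ˣ} (lG : N ≤ G) (n2 : ∀ g ∈ G, conjBy N g = N)
    (c : ∀ n ∈ N, ⁅conjBy B n, B⁆ = ⊥) : B ≤ Subgroup.centralizer N := fun b hb n hn => by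
  let W := {C | ∃ n ∈ N, C = conjBy B n}
  have cc : ∀ C ∈ W, ∀ D ∈ W, ⁅C, D⁆ = ⊥ := by
    rintro _ ⟨n, i, rfl⟩ _ ⟨m, j, rfl⟩
    simpa [cj_cj] using RS.comm_cj (c _ (mul_mem (inv_mem j) i)) m
  have ws : ∀ C ∈ W, C ∈ h.Sg := by rintro _ ⟨n, j, rfl⟩; exact h.cjS hB (lG j)
  have le : ∀ n ∈ N, conjBy B n ≤ ⨆ C ∈ W, C := fun n j => le_iSup₂_of_le _ ⟨n, j, rfl⟩ le_rfl
  have u := baer (k := k) (W := W) (fun C i D j a l => by rwa [cj_of_comm fun d e => cen_of (cc D j C i) e l])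
    fun C i D j => ((h.tri (ws C i) (ws D j)).resolve_right fun e => e.2.r1.not_comm (cc C i D j)).1
  have l : ∀ g ∈ N, conjBy (⨆ C ∈ W, C) g ≤ ⨆ C ∈ W, C := fun g j => by
    simp only [conjBy, Subgroup.map_iSup]
    refine iSup₂_le ?_
    rintro _ ⟨n, l, rfl⟩
    exact cj_cj.le.trans (le _ (mul_mem j l))
  have := rad h.irr n2 (inf_le_left (b := ⨆ C ∈ W, C)) (u.mono inf_le_right) fun g j => by
    rw [conjBy, Subgroup.map_inf _ _ _ (MulEquiv.injective _)]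
    exact congrArg₂ _ (n2 g (lG j)) ((l g j).antisymm (cj_cj_inv.ge.trans (cj_mono (l _ (inv_mem j)))))
  have := this.le (⟨by simpa [mul_assoc] using (mul_mem hn ((n2 b (h.le_G hB hb)).le (cj_mem (inv_mem hn) b))),
    mul_mem (le n hn (cj_mem hb n)) (le 1 (one_mem _) (by simpa using hb))⟩ : n * b * n⁻¹ * b⁻¹ ∈ N ⊓ ⨆ C ∈ W, C)
  exact commutatorElement_eq_one_iff_mul_comm.1 this

theorem qsimple (h : QS G Q) (hA : A ∈ h.Sg)
    (hG : G ≤ (⨆ B ∈ Cp h.Sg A, B) ⊔ Subgroup.centralizer ((⨆ B ∈ Cp h.Sg A, B :) : Set (End k M)ˣ)) :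
    IsQuasisimple ↥(⨆ B ∈ Cp h.Sg A, B) := by
  have hf := (⨆ B ∈ Cp h.Sg A, B).subtype_injective
  refine qs_of (h.ri.cl h.ni hA) (Ri.ni (Cp.ni h.ni)) (fun B i => (h.card_EG i.1).trans_eq
    (ENat.card_congr (B.equivMapOfInjective _ hf).toEquiv).symm)
    (fun B i C j r => sp_of_map hf (h.sp_of i.1 j.1 ((r1_map hf).2 r))) fun N hN c n hn => ?_
  have lN := Subgroup.map_subtype_le N
  have lG : (⨆ B ∈ Cp h.Sg A, B) ≤ G := iSup₂_le fun B i => h.le_G i.1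
  refine Subgroup.mem_center_iff.2 fun g => Subtype.ext ((iSup₂_le fun B i => h.norm_cent i.1 (lN.trans lG)
    (fun g j => cj_of_sup (fun g i => ?_) (fun g i => cj_of_comm fun a j => Subgroup.mem_centralizer_iff.1 i a (lN j))
      g (hG j)) ?_ : (⨆ B ∈ Cp h.Sg A, B) ≤ _) g.2 _ ⟨n, hn, rfl⟩).symm
  · exact (map_cj _ N ⟨g, i⟩).symm.trans (congrArg _ (cj_eq_iff.2 (Subgroup.normalizer_eq_top N ▸ Subgroup.mem_top _)))
  · rintro _ ⟨n, j, rfl⟩
    obtain ⟨B, rfl⟩ := sub_mem i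
    rw [← map_cj, comm_map hf]
    exact c B i n j

theorem fin (h : QS G Q) : (Cp h.Sg '' h.Sg).Finite :=
  fin_of_comm (F := fun P : Cp h.Sg '' h.Sg => ⨆ B ∈ P.1, B) (by
    rintro ⟨_, A, i, rfl⟩ ⟨_, B, j, rfl⟩ n
    exact h.ri.comm h.ni fun e => n (Subtype.ext e)) (by
    rintro ⟨_, A, i, rfl⟩ e
    obtain ⟨j, B, l, r⟩ := Cp.ni h.ni A ⟨i, .refl⟩
    exact r.not_comm (comm_mono e (le_iSup₂_of_le A j le_rfl) (le_iSup₂_of_le B l le_rfl)))

theorem mem_prod (h : QS G Q) (n : ℕ) : ∀ {s g}, s ∈ Q → rk s = n → g.1 = 1 + s →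
    g ∈ (⨆ A ∈ h.Sg, A) ⊔ (G ⊓ Subgroup.centralizer ((⨆ A ∈ h.Sg, A :) : Set (End k M)ˣ)) := by
  induction n using Nat.strong_induction_on with
  | _ n ih =>
  rintro s g hs rfl hg
  rcases h.decomp hs with e | ⟨x, i, j, l, e⟩
  · exact Subgroup.mem_sup_right ⟨h.mem s hs g hg, h.cent_mem e hg⟩
  · rw [show g = un _ (h.sq _ j) * un _ (h.sq _ i.1) from Units.ext (by simp [hg, mul_add, add_mul, e, add_assoc])]
    exact mul_mem (ih _ l j rfl rfl) (Subgroup.mem_sup_left (le_iSup₂_of_le (f := fun A (_ : A ∈ h.Sg) => A) _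
      ⟨x, i, rfl⟩ le_rfl (h.un_mem (h.self i.1))))

end QS

end QP
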