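import Cfsg.Agent.QP.F
import Cfsg.Agent.RS.R2

/-! The root subgroups of a quadratic system. -/
namespace QP
open Cfsg RS Submodule Module LinearMap Polynomial
open scoped commutatorElement

variable {k M : Type*} [Field k] [AddCommGroup M] [Module k M]
variable {G : Subgroup (End k M)ˣ} {Q : Set (End k M)} {s t u x y q : End k M} {g : (End k M)ˣ}

/-- `x` acts like `s` -/
def Lk (s x : End k M) : Prop := range x ≤ range s ∧ ker s ≤ ker x

theorem Lk.refl (s : End k M) : Lk s s := ⟨le_rfl, le_rfl⟩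
theorem Lk.trans (i : Lk s x) (j : Lk x y) : Lk s y := ⟨j.1.trans i.1, i.2.trans j.2⟩
theorem Lk.r (i : Lk s x) (e : y * s = 0) : y * x = 0 := LinearMap.ext fun m => by
  obtain ⟨m', e'⟩ := i.1 ⟨m, rfl⟩
  rw [End.mul_apply, ← e']; exact LinearMap.congr_fun e m'
theorem Lk.l (i : Lk s x) (e : s * y = 0) : x * y = 0 := LinearMap.ext fun m => i.2 (LinearMap.congr_fun e m)

/-- the space of `x ∈ Q` acting like `s` -/
def QS.Ee (h : QS G Q) (s : End k M) : Submodule k (End k M) where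
  carrier := {x | x ∈ Q ∧ Lk s x ∧ (x = 0 ∨ s * s = 0)}
  zero_mem' := ⟨h.zero, ⟨by simp, by simp⟩, .inl rfl⟩
  add_mem' {x y} i j := by
    by_cases e : s * s = 0
    · exact ⟨h.add _ i.1 _ j.1 (j.2.1.r (i.2.1.l e)) (i.2.1.r (j.2.1.l e)), ⟨(range_add_le _ _).trans
        (sup_le i.2.1.1 j.2.1.1), fun m a => by simp [show x m = 0 from i.2.1.2 a, show y m = 0 from j.2.1.2 a]⟩, .inr e⟩
    · simpa [i.2.2.resolve_right e] using j
  smul_mem' β x i := ⟨h.smul _ i.1 β, ⟨(range_smul_le_range _ _).trans i.2.1.1, i.2.1.2.trans (ker_le_ker_smul _ _)⟩,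
    i.2.2.imp_left fun e => by simp [e]⟩

namespace QS

theorem mem_Ee (h : QS G Q) (hs : s ∈ Q) : x ∈ h.Ee s ↔ x ∈ Q ∧ Lk s x :=
  ⟨fun i => ⟨i.1, i.2.1⟩, fun i => ⟨i.1, i.2, .inr (h.sq s hs)⟩⟩

theorem self (h : QS G Q) (hs : s ∈ Q) : s ∈ h.Ee s := (h.mem_Ee hs).2 ⟨hs, .refl s⟩

theorem mul0 (h : QS G Q) (i : x ∈ h.Ee s) (j : y ∈ h.Ee s) : x * y = 0 :=
  i.2.2.elim (fun e => by simp [e]) fun e => j.2.1.r (i.2.1.l e)

theorem Ee_mul (h : QS G Q) : h.Ee s * h.Ee s = 0 :=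
  le_bot_iff.1 (mul_le.2 fun _ i _ j => h.mul0 i j)

/-- the root subgroup -/
def EG (h : QS G Q) (s : End k M) : Subgroup (End k M)ˣ :=
  Un (N := h.Ee s) (h.Ee_mul.le.trans bot_le) ⟨2, (pow_two _).trans h.Ee_mul⟩

theorem mem_EG (h : QS G Q) : g ∈ h.EG s ↔ g.1 - 1 ∈ h.Ee s := Iff.rfl

theorem un_mem (h : QS G Q) (i : x ∈ h.Ee s) : un x (h.mul0 i i) ∈ h.EG s := by simpa [mem_EG, un]

theorem ex (h : QS G Q) (i : g ∈ h.EG s) : ∃ x, ∃ j : x ∈ h.Ee s, g = un x (h.mul0 j j) :=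
  ⟨_, i, Units.ext (by simp [un])⟩

theorem EG_le (h : QS G Q) : h.EG s ≤ G := fun g i => h.mem _ i.1 g (by simp)

theorem sp_EG (h : QS G Q) : sp k (h.EG s) ≤ h.Ee s := sp_le.2 fun _ i => i

theorem EG_comm (h : QS G Q) (e : ∀ x ∈ h.Ee s, ∀ y ∈ h.Ee t, x * y = y * x) : ⁅h.EG s, h.EG t⁆ = ⊥ :=
  comm_iff.2 fun a i b j => Units.ext (by
    have := e _ i _ j
    simp only [Units.val_mul]
    linear_combination (norm := noncomm_ring) this)

theorem EG_ab (h : QS G Q) : ⁅h.EG s, h.EG s⁆ = ⊥ := h.EG_comm fun x i y j => by rw [h.mul0 i j, h.mul0 j i]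

theorem conj_Ee (h : QS G Q) (hg : g ∈ G) (i : x ∈ h.Ee s) : g.1 * x * (g⁻¹).1 ∈ h.Ee (g.1 * s * (g⁻¹).1) :=
  ⟨h.conj g hg x i.1, ⟨by
    rintro _ ⟨m, rfl⟩
    obtain ⟨m', e⟩ := i.2.1.1 ⟨(g⁻¹).1 m, rfl⟩
    exact ⟨g.1 m', by simp only [End.mul_apply, ← e]; rw [← End.mul_apply _ g.1]; simp⟩, fun m a => by
    have : s ((g⁻¹).1 m) = 0 := by simpa [← End.mul_apply, mul_assoc] using congrArg (g⁻¹).1 a
    simp [show x _ = 0 from i.2.1.2 this]⟩, i.2.2.imp (fun e => by simp [e]) fun e => by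
      simp [mul_assoc, ← mul_assoc s s, e]⟩

theorem cj_EG (h : QS G Q) (hg : g ∈ G) : conjBy (h.EG s) g = h.EG (g.1 * s * (g⁻¹).1) := by
  have : ∀ g ∈ G, ∀ s, conjBy (h.EG s) g ≤ h.EG (g.1 * s * (g⁻¹).1) := fun g hg s => by
    rintro _ ⟨a, i, rfl⟩
    simpa [mem_EG, mul_sub, sub_mul] using h.conj_Ee hg i
  exact le_antisymm (this g hg s) (cj_cj_inv.ge.trans (cj_mono (by
    simpa [mul_assoc] using this _ (inv_mem hg) (g.1 * s * (g⁻¹).1))))

variable [FiniteDimensional k M]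

theorem mn (h : QS G Q) (hs : s ∈ Mn Q) (i : x ∈ h.Ee s) (x0 : x ≠ 0) : x ∈ Mn Q ∧ Lk x s := by
  have l := hs.2.2 x i.1 x0
  have e := eq_of_le_of_finrank_le i.2.1.1 l
  refine ⟨mn_of hs i.1 x0 (finrank_mono i.2.1.1), e.ge, (eq_of_le_of_finrank_le i.2.1.2 ?_).ge⟩
  have := s.finrank_range_add_finrank_ker
  have := x.finrank_range_add_finrank_ker
  unfold rk at l
  omega

theorem Ee_eq (h : QS G Q) (hs : s ∈ Mn Q) (i : x ∈ h.Ee s) (x0 : x ≠ 0) : h.Ee x = h.Ee s := by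
  ext y
  rw [h.mem_Ee i.1, h.mem_Ee hs.1]
  exact and_congr_right fun _ => ⟨i.2.1.trans, (h.mn hs i x0).2.trans⟩

theorem EG_eq (h : QS G Q) (hs : s ∈ Mn Q) (i : x ∈ h.Ee s) (x0 : x ≠ 0) : h.EG x = h.EG s := by
  ext; rw [mem_EG, mem_EG, h.Ee_eq hs i x0]

theorem swap (h : QS G Q) (hs : s ∈ Q) (ht : t ∈ Mn Q) (e : s * (t * s) = 0) : t * (s * t) = 0 := by
  have ss := h.sq s hs
  refine h.nil 2 hs ht ?_
  simp [pow_two, mul_add, add_mul, mul_assoc, ← mul_assoc s s, ← mul_assoc t t, ss, h.sq t ht.1, e,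
    ← mul_assoc s t s, show ∀ x, s * (t * (s * x)) = 0 from fun x => by simpa [mul_assoc] using congrArg (· * x) e]

theorem split (h : QS G Q) (hs : s ∈ Mn Q) (ht : t ∈ Q) (n : s * (t * s) ≠ 0) :
    ∃ u ∈ Mn Q, s * (u * s) = s ∧ u * (s * u) = u ∧ ∃ x ∈ h.Ee u, x ≠ 0 ∧ t - x ∈ Q ∧ rk (t - x) < rk t ∧
      (t - x) * x = 0 := by
  have hc := (h.pair' hs ht).resolve_left n
  obtain ⟨s', t', e1, e2, T⟩ := exists_two (h.sq _ hs.1) (h.sq _ ht)
  generalize s * t + t * s = c at *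
  subst e1 e2
  obtain ⟨π, hπ, hX, ps, -, all⟩ := h.field T hs ht hc
  obtain ⟨w, v, e⟩ := hπ.coprime_iff_not_dvd.2 hX
  have pt : π • (X : k[X]) • t' = 0 := by simpa [mul_assoc, T.ts', T.tt] using congrArg (t' * · * t') ps
  have e3 : v ^ 2 * X ^ 2 = 1 - w * (v * X + 1) * π := by linear_combination (v * X + 1) * e
  have st : s' * (t' * s') = (X : k[X]) • s' := by simp [T.ts, mul_sub, T.ss']
  have ts : t' * (s' * t') = (X : k[X]) • t' := by simp [T.ts', T.tt]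
  have e1 : s' * ((v ^ 2 * X) • t' * s') = s' := by
    rw [smul_mul_assoc, mul_smul_comm, st]
    linear_combination (norm := module) e3 • s' - (w * (v * X + 1) : k[X]) • ps
  have e2 : (v ^ 2 * X) • t' * (s' * (v ^ 2 * X) • t') = (v ^ 2 * X) • t' := by
    rw [smul_mul_assoc, mul_smul_comm, mul_smul_comm, ts]
    linear_combination (norm := module) (v ^ 2 * X : k[X]) • e3 • t' - (v ^ 2 * w * (v * X + 1) : k[X]) • pt
  have u0 : (v ^ 2 * X) • t' ≠ 0 := fun e => hs.2.1 (by rw [← e1, e]; simp)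
  have hu : ((v ^ 2 * X) • t').1 ∈ Mn Q := mn_of hs (all _) (by simpa using u0)
    (e2 ▸ (rk_le _ _).trans (rk_le' _ _))
  have hx := all (v ^ 2 * X)
  have z : ∀ p q : k[X], (p • t').1 * (q • t').1 = 0 := fun p q => by rw [← MulMemClass.coe_mul]; simp [T.tt]
  have x0 : (v ^ 2 * X * X) • t' ≠ 0 := fun e' => u0 (by
    linear_combination (norm := module) v • e' - (v ^ 2 * X : k[X]) • e • t' + (v ^ 2 * w : k[X]) • pt)
  have d : t'.1 - ((v ^ 2 * X * X) • t').1 = ((1 - v ^ 2 * X * X) • t').1 :=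
    congrArg Subtype.val (show t' - _ = _ by module)
  refine ⟨_, hu, congrArg Subtype.val e1, congrArg Subtype.val e2, _, (h.mem_Ee hu.1).2 ⟨hx, ?_, ?_⟩, by simpa using x0,
    h.sub ht hx (by simpa using z 1 _) (by simpa using z _ 1), ?_, d ▸ z _ _⟩
  · rw [show (v ^ 2 * X * X) • t' = (v ^ 2 * X) • t' * (X : k[X]) • 1 by simp [smul_smul, mul_comm]]
    exact range_comp_le_range _ _
  · rw [mul_comm (v ^ 2 * X) X, mul_smul X, coe_X]
    exact ker_le_ker_comp _ _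
  · rw [d, coe_smul]
    refine not_le.1 fun l => x0 ?_
    have := Inj.canc (p := X) (inj_of l) (by
      linear_combination (norm := module) (w * (v * X + 1) : k[X]) • pt - (X : k[X]) • e3 • t')
    linear_combination (norm := module) (v ^ 2 * X : k[X]) • this

theorem opp (h : QS G Q) (hs : s ∈ Mn Q) (ht : t ∈ Mn Q) (n : s * (t * s) ≠ 0) :
    ∃ u ∈ h.Ee t, u ≠ 0 ∧ s * (u * s) = s ∧ u * (s * u) = u := by
  obtain ⟨u, hu, e1, e2, x, hx, x0, i, j, -⟩ := h.split hs ht.1 n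
  obtain rfl : t = x := sub_eq_zero.1 (by_contra fun e => (ht.2.2 _ i e).not_gt j)
  exact ⟨u, h.Ee_eq hu hx x0 ▸ h.self hu.1, hu.2.1, e1, e2⟩

theorem sand (h : QS G Q) (hs : s ∈ Mn Q) (ht : t ∈ Mn Q) (e : s * (t * s) = 0) {x'} (i : x ∈ h.Ee s)
    (i' : x' ∈ h.Ee s) (j : y ∈ h.Ee t) : x * (y * x') = 0 := by
  have := j.2.1.l ((mul_assoc t s y).symm.trans (j.2.1.r ((mul_assoc t s t).trans (h.swap hs.1 ht e))))
  exact i.2.1.l ((mul_assoc s y x').symm.trans (i'.2.1.r ((mul_assoc s y s).trans (h.swap j.1 hs this))))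

end QS

end QP
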