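import Cfsg.Agent.QP.P2

/-! The field attached to an opposite pair. -/
namespace QP
open Cfsg RS Submodule Module LinearMap Polynomial

variable {k M : Type*} [Field k] [AddCommGroup M] [Module k M]
variable {c : End k M} {G : Subgroup (End k M)ˣ} {Q : Set (End k M)} {s t x : Cz c} {a γ r p q π : k[X]} {m : M}

theorem Inj.canc (h : Inj (aeval c q) s.1) (e : (q * p) • s = 0) : p • s = 0 := by
  have : s * (p • 1) = p • s := by simp
  refine this ▸ Subtype.ext (h.eq (z := (p • 1 : Cz c).1) ?_)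
  rw [← MulMemClass.coe_mul, this, ← coe_smul, smul_smul, e]; rfl

theorem QS.tadd (h : QS G Q) (xx : x * x = 0) (i : (p • x).1 ∈ Q) (j : (q • x).1 ∈ Q) : ((p + q) • x).1 ∈ Q := by
  have : ∀ p q : k[X], (p • x).1 * (q • x).1 = 0 := fun p q => by
    rw [← MulMemClass.coe_mul]; simp [xx]
  rw [add_smul]
  exact h.add _ i _ j (this _ _) (this _ _)

theorem QS.tC (h : QS G Q) (β : k) (i : (p • x).1 ∈ Q) : ((C β * p) • x).1 ∈ Q := by
  rw [mul_smul, coe_C]; exact h.smul _ i β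

theorem QS.tsub (h : QS G Q) (xx : x * x = 0) (i : (p • x).1 ∈ Q) (j : (q • x).1 ∈ Q) : ((p - q) • x).1 ∈ Q := by
  simpa only [map_neg, map_one, neg_one_mul, sub_eq_add_neg] using h.tadd xx i (h.tC (-1) j)

theorem QS.allsq (h : QS G Q) (xx : x * x = 0) (e : ∀ u, ¬ π ∣ u → ∃ r, (r • x).1 ∈ Q ∧ π ∣ u ^ 2 - r) (u : k[X]) :
    ∃ r, (r • x).1 ∈ Q ∧ π ∣ u - r := by
  have e' : ∀ u, ∃ r, (r • x).1 ∈ Q ∧ π ∣ u ^ 2 - r := fun u => by
    by_cases i : π ∣ u
    · exact ⟨0, by simpa using h.zero, by simpa using dvd_pow i two_ne_zero⟩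
    · exact e u i
  obtain ⟨r, i, j⟩ := e' (u + 1)
  obtain ⟨r', i', j'⟩ := e' (u - 1)
  refine ⟨_, h.tC (2 * 2)⁻¹ (h.tsub xx i i'), ?_⟩
  have : C (2 * 2 : k)⁻¹ * 4 = 1 := by
    rw [show (4 : k[X]) = C (2 * 2) by rw [map_mul, map_ofNat]; norm_num, ← map_mul,
      inv_mul_cancel₀ (mul_ne_zero h.two h.two), map_one]
  convert (dvd_sub j j').mul_left (C (2 * 2 : k)⁻¹) using 1
  linear_combination (-u) * this

variable [FiniteDimensional k M]

theorem Col.pair (h : QS G Q) (T : Two s t) (hs : s.1 ∈ Mn Q) (i : Col Q s t a γ) :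
    (γ ^ 2 * X ^ 2) • s = 0 ∨ Inj (aeval c (γ ^ 2 * X ^ 2)) s.1 := by
  obtain ⟨s', hs'⟩ : ∃ s', s' = a ^ 2 • s + (a * γ) • (t * s - s * t) - (γ ^ 2 * X) • t := ⟨_, rfl⟩
  rw [Col, ← hs'] at i
  have e : s' * s + s * s' = (-(γ ^ 2 * X ^ 2)) • 1 := by
    simp [hs', add_mul, sub_mul, mul_add, mul_sub, mul_assoc, T.ss, T.ts, T.ss', smul_sub]; module
  refine (h.pair _ i hs rfl).imp (fun j => ?_) fun j m l => j m ?_
  · have := congrArg (· * s) e
    have j' : s * (s' * s) = 0 := Subtype.ext j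
    simp only [smul_mul_assoc, add_mul, mul_assoc, T.ss, j', mul_zero, one_mul] at this
    linear_combination (norm := module) this
  · change (s' * s + s * s').1 _ = 0
    rw [e, coe_smul, map_neg]
    simp [-map_mul, l]

theorem QS.pair' (h : QS G Q) {s t : End k M} (hs : s ∈ Mn Q) (ht : t ∈ Q) :
    s * (t * s) = 0 ∨ Inj (s * t + t * s) s := by
  obtain ⟨s', t', e1, e2, T⟩ := exists_two (h.sq _ hs.1) (h.sq _ ht)
  generalize hc : s * t + t * s = c at *
  subst e1 e2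
  have : Col Q s' t' 1 0 := by simpa [Col] using hs
  refine ((this.cy h T (r := 1) (by simpa)).pair h T hs).imp (fun j => h.nil 3 ht hs ?_) fun j m l => j m ?_
  · have f1 := congrArg (· * t') j
    have f2 := congrArg (t' * ·) j
    have : (X ^ 3 : k[X]) • (1 : Cz c) = 0 := by
      simp [T.ts, smul_sub] at f1 f2
      linear_combination (norm := module) f1 + f2
    simpa [coe_smul, add_comm, hc] using congrArg Subtype.val this
  · simp [pow_two, l]

theorem stepF (h : QS G Q) (T : Two s t) (hs : s.1 ∈ Mn Q) (hc : Inj (aeval c (X : k[X])) s.1) (i : Col Q s t a γ)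
    (m0 : s.1 m ≠ 0) (hm : (π • s).1 m = 0) (ha : π ∣ γ) : γ • s = 0 ∧ (a ^ 2 • s).1 ∈ Q := by
  have e0 : γ ^ 2 • s = 0 := hc.canc (hc.canc (by
    rw [← (i.pair h T hs).resolve_right fun j => m0 (j m (by
      rw [← End.mul_apply, ← coe_smul, ev_dvd ((dvd_pow ha two_ne_zero).mul_right _) hm]))]
    congr 1; ring))
  have e1 := congrArg (t * · * t) e0
  simp only [mul_smul_comm, smul_mul_assoc, mul_assoc, T.ts', T.tt, mul_zero, sub_zero, zero_mul, smul_smul] at e1
  rw [Col, e1, sub_zero] at i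
  obtain ⟨s', hs'⟩ : ∃ s', s' = a ^ 2 • s + (a * γ) • (t * s - s * t) := ⟨_, rfl⟩
  have f1 : s' * s = (-(a * γ * X)) • s := by
    simp [hs', add_mul, sub_mul, mul_assoc, T.ss, T.ts, T.ss', mul_sub, smul_smul]; module
  have f2 : s * s' = (a * γ * X) • s := by simp [hs', mul_add, mul_assoc, T.ss, T.ts, T.ss', mul_sub, smul_smul]
  have q := h.comm hs.1 (hs' ▸ i).1 (show (s' * (s * s')).1 = (0 : Cz c).1 by
    rw [f2, mul_smul_comm, f1]; congr 1; linear_combination (norm := module) -(a ^ 2 * X ^ 2 : k[X]) • e0)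
    (show (s * (s' * s)).1 = (0 : Cz c).1 by rw [f1, mul_smul_comm, T.ss, smul_zero])
  have q' : ((2 * (X * (a * γ))) • s).1 ∈ Q := by
    have q : (s * s' - s' * s).1 ∈ Q := q
    convert q using 2
    rw [f1, f2]; module
  have g := hc.canc (half h (QS.dich' hs q' m0 (ev_dvd (((ha.mul_left a).mul_left X).mul_left 2) hm)))
  rw [smul_sub, ← mul_smul_comm, ← smul_mul_assoc, g, mul_zero, zero_mul, sub_zero, add_zero] at i
  refine ⟨Inj.canc (q := a ^ 2) (inj_of (coe_smul _ s ▸ hs.2.2 _ i.1 i.2.1)) ?_, i.1⟩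
  linear_combination (norm := module) a • g

theorem QS.field (h : QS G Q) (T : Two s t) (hs : s.1 ∈ Mn Q) (ht : t.1 ∈ Q) (hc : Inj c s.1) :
    ∃ π : k[X], Irreducible π ∧ ¬ π ∣ X ∧ π • s = 0 ∧ (∀ u : k[X], (u • s).1 ∈ Q) ∧ ∀ u : k[X], ((u * X) • t).1 ∈ Q := by
  obtain ⟨π, hπ, hX, m, m0, hm⟩ := exists_pi (x := s) fun n e => hs.2.1 (by
    simpa [e] using (hc.pow (s.2 c rfl) n).eq (z := 1))
  haveI := Fact.mk hπ
  replace hc : Inj (aeval c (X : k[X])) s.1 := by simpa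
  have F := fun a γ i => stepF h T hs hc (a := a) (γ := γ) i m0 hm
  have F2 := h.allsq (π := π) T.ss fun u n => by
    obtain ⟨a, γ, i, -, e1, e2⟩ := exists_col h T hs ht hX (u := 0) (v := AdjoinRoot.mk π u)
      (.inr (mt AdjoinRoot.mk_eq_zero.1 n))
    exact ⟨_, (F a γ i (AdjoinRoot.mk_eq_zero.1 e1)).2, (AdjoinRoot.mk_eq_mk.1 e2.symm).trans (sub_dvd_pow_sub_pow _ _ 2)⟩
  have inv : ∀ x, ¬ π ∣ x → ∀ y, ∃ r, (r • s).1 ∈ Q ∧ π ∣ y + r * x := fun x n y => by
    obtain ⟨u, v, e⟩ := hπ.coprime_iff_not_dvd.2 n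
    obtain ⟨r, i, j⟩ := F2 (-v * y)
    refine ⟨r, i, ?_⟩
    convert dvd_sub (dvd_mul_left π (u * y)) (j.mul_right x) using 1
    linear_combination (-y) * e
  have c0 : Col Q s t 1 0 := by simpa [Col] using hs
  have t1 : ((1 : k[X]) • t).1 ∈ Q := by simpa
  have c1 := c0.cy h T t1
  obtain ⟨r₀, i0, j0⟩ := inv X hX 1
  have e0 : (1 + r₀ * X) • s = 0 := half h (by
    convert (F _ _ ((c1.cx h T (h.tadd T.ss i0 i0)).cy h T t1) (by convert j0.mul_left 2 using 1; ring)).1 using 2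
    ring)
  have sq1 : ∀ r, (r • s).1 ∈ Q → ((2 + r * X) ^ 2 • s).1 ∈ Q := fun r i => by
    have c2 := (c1.cx h T i).cy h T t1
    by_cases n : π ∣ 2 + r * X
    · have := (F _ _ c2 (by convert n using 1; ring)).1
      convert h.zero
      exact congrArg Subtype.val (show _ = (0 : Cz c) by linear_combination (norm := module) (2 + r * X : k[X]) • this)
    obtain ⟨r', i', j'⟩ := inv ((2 + r * X) * X) (fun d => (hπ.prime.dvd_or_dvd d).elim n hX) (3 + 2 * r * X)
    obtain ⟨e1, e2⟩ := F _ _ ((c2.cx h T i').cy h T t1) (by convert j' using 1; ring)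
    convert e2 using 2
    linear_combination (norm := module) (1 - r' * (2 + r * X) * X : k[X]) • e1
  have sq2 : ∀ r, (r • s).1 ∈ Q → ((r * X) ^ 2 • s).1 ∈ Q := fun r i => by
    convert sq1 _ (h.tadd T.ss i (h.tadd T.ss i0 i0)) using 2
    linear_combination (norm := module) -(4 * (1 + r * X + r₀ * X) : k[X]) • e0
  have mx : ∀ r, (r • s).1 ∈ Q → ((r * X) • s).1 ∈ Q := fun r i => by
    refine h.of_smul h.two ?_
    rw [← coe_C]
    convert h.tsub T.ss (h.tadd T.ss (sq2 _ i) (sq2 _ i0)) (sq2 _ (h.tadd T.ss i i0)) using 2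
    rw [map_ofNat]
    linear_combination (norm := module) (2 * r * X : k[X]) • e0
  have all : ∀ u : k[X], (u • s).1 ∈ Q := fun u => by
    induction u using Polynomial.induction_on with
    | C a => exact coe_C a s ▸ h.smul _ hs.1 a
    | add p q i j => exact h.tadd T.ss i j
    | monomial n a i => simpa only [pow_succ, mul_assoc] using mx _ i
  have ps := QS.dich' hs (all π) m0 hm
  have pt : π • (X : k[X]) • t = 0 := by simpa [mul_assoc, T.ts', T.tt] using congrArg (t * · * t) ps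
  refine ⟨π, hπ, hX, ps, all, fun u => ?_⟩
  obtain ⟨r, i, v, e⟩ := h.allsq (π := π) (x := (X : k[X]) • t) (by simp [T.tt]) (fun u n => by
    obtain ⟨a, γ, i, -, e1, e2⟩ := exists_col h T hs ht hX (u := AdjoinRoot.mk π u) (v := 0)
      (.inl (mt AdjoinRoot.mk_eq_zero.1 n))
    obtain ⟨v, rfl⟩ := AdjoinRoot.mk_eq_zero.1 e2
    refine ⟨_, ?_, (AdjoinRoot.mk_eq_mk.1 e1.symm).trans (sub_dvd_pow_sub_pow _ _ 2)⟩
    have f1 := congrArg (t * ·) ps
    have f2 := congrArg (· * t) ps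
    simp only [mul_smul_comm, smul_mul_assoc, mul_zero, zero_mul] at f1 f2
    have : (-_ : Cz c).1 ∈ Q := h.neg i.1
    convert this using 2
    linear_combination (norm := module) (π * v ^ 2 : k[X]) • ps + (v * γ : k[X]) • f1 - (v * γ : k[X]) • f2) u
  convert i using 2
  linear_combination (norm := module) v • pt + e • (X : k[X]) • t

end QP
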