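import Cfsg.Agent.QP.T3

/-! Quadratic pairs give quadratic systems. -/
namespace QP
open Cfsg RS Submodule Module LinearMap
open scoped commutatorElement

variable {k M : Type*} [Field k] [AddCommGroup M] [Module k M]
variable {G : Subgroup (End k M)ˣ} {s t u x y q : End k M} {g σ : (End k M)ˣ}

/-- quadratic elements -/
def Q0 (G : Subgroup (End k M)ˣ) : Set (End k M) := {s | s * s = 0 ∧ ∀ c : k, ∀ g : (End k M)ˣ, g.1 = 1 + c • s → g ∈ G}

theorem sq_smul (h : s * s = 0) (c : k) : c • s * c • s = 0 := by simp [h]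

theorem qs (h2 : ringChar k ≠ 2) (h3 : Nat.card k ≠ 3) (hG : IsQuadraticPair G) : QS G (Q0 G) where
  irr := hG.1
  h2 := h2
  h3 := h3
  zero := ⟨by simp, fun c g e => by rw [show g = 1 from Units.ext (by simpa using e)]; exact one_mem _⟩
  sq s i := i.1
  smul s i β := ⟨sq_smul i.1 β, fun c g e => i.2 (c * β) g (by rw [e, smul_smul])⟩
  add s i t j e e' := ⟨by simp [mul_add, add_mul, i.1, j.1, e, e'], fun c g l => by
    rw [show g = un _ (sq_smul i.1 c) * un _ (sq_smul j.1 c) from Units.ext (by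
      simp [l, mul_add, add_mul, e, add_assoc])]
    exact mul_mem (i.2 c _ rfl) (j.2 c _ rfl)⟩
  mem s i g e := i.2 1 g (by simpa using e)
  conj g hg s i := ⟨by simp [mul_assoc, ← mul_assoc s s, i.1], fun c x l => by
    rw [show x = g * un _ (sq_smul i.1 c) * g⁻¹ from Units.ext (by simp [l, mul_add, add_mul])]
    exact mul_mem (mul_mem hg (i.2 c _ rfl)) (inv_mem hg)⟩

theorem mem_quad : σ ∈ quadraticElements G ↔ σ.1 - 1 ∈ Q0 G ∧ σ.1 - 1 ≠ 0 :=
  ⟨fun i => ⟨⟨i.2.1.1, fun c _ e => i.2.2 ⟨c, e⟩⟩, i.2.1.2⟩,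
    fun i => ⟨i.1.2 1 σ (by simp), ⟨i.1.1, i.2⟩, fun g ⟨c, e⟩ => i.1.2 c g e⟩⟩

theorem mem_min : σ ∈ minimalQuadraticElements G ↔ σ.1 - 1 ∈ Mn (Q0 G) :=
  ⟨fun i => ⟨(mem_quad.1 i.1).1, (mem_quad.1 i.1).2, fun t j t0 => by
      have : rk _ ≤ rk _ := i.2 (un t j.1) (mem_quad.2 (by simpa using ⟨j, t0⟩))
      simpa using this⟩,
    fun i => ⟨mem_quad.2 ⟨i.1, i.2.1⟩, fun τ j => i.2.2 _ (mem_quad.1 j).1 (mem_quad.1 j).2⟩⟩

variable [FiniteDimensional k M] (h : QS G (Q0 G))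

theorem class_eq (i : σ ∈ minimalQuadraticElements G) : sameActionClass G σ ∪ {1} = h.EG (σ.1 - 1) := by
  rw [mem_min] at i
  ext τ
  refine ⟨?_, fun j => ?_⟩
  · rintro (j | rfl)
    · exact (h.mem_Ee i.1).2 ⟨(mem_min.1 j.1).1, j.2.2.le, j.2.1.ge⟩
    · exact one_mem _
  · by_cases e : τ = 1
    · exact .inr e
    have := h.mn i j (by rwa [ne_eq, sub_eq_zero, Units.val_eq_one])
    exact .inl ⟨mem_min.2 this.1, this.2.2.antisymm j.2.1.2, j.2.1.1.antisymm this.2.1⟩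

theorem sub_eq (i : σ ∈ minimalQuadraticElements G) : sameActionSubgroup G σ = h.EG (σ.1 - 1) := by
  rw [sameActionSubgroup, ← Subgroup.closure_union_one, class_eq h i, Subgroup.closure_eq]

theorem roots_eq : quadraticRootSubgroups G = h.Sg := Set.ext fun _ =>
  ⟨fun ⟨_, i, e⟩ => ⟨_, mem_min.1 i, e.trans (sub_eq h i)⟩, fun ⟨s, i, e⟩ => by
    have j : un s i.1.1 ∈ minimalQuadraticElements G := mem_min.2 (by simpa)
    exact ⟨_, j, by simpa [sub_eq h j]⟩⟩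

theorem core0 {Q} (h : QS G Q) (hs : s ∈ Mn Q) (ht : t ∈ Mn Q) (e : s * (t * s) = 0) (n : s * t - t * s ≠ 0)
    (i : x ∈ h.Ee s) : (s * t - t * s) * x = 0 ∧ x * (s * t - t * s) = 0 ∧
      ∀ m, (s * t - t * s) m = 0 → x m ∈ range (s * t - t * s) := by
  have ss := h.sq s hs.1
  refine ⟨i.2.1.r (by simp [sub_mul, mul_assoc, ss, e]), i.2.1.l (by simp [mul_sub, ← mul_assoc s s, ss, e]),
    fun m l => ?_⟩
  by_cases x0 : x = 0
  · simp [x0]
  obtain ⟨a, b⟩ := h.br hs ht e n i (h.self ht.1)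
  have n' := fun z => (b z).elim x0 ht.2.1
  have hx := (h.mn hs i x0).1
  have e1 := h.sand hs ht e i i (h.self ht.1)
  have e2 := h.swap hx.1 ht e1
  exact a.2.1.1 ((h.comm' hx.1 ht e2 e1 n').2.2.2.ge (mem_sup_left ((h.comm' ht.1 hx e1 e2
    (by rwa [← neg_sub, neg_ne_zero])).2.1.le ⟨⟨m, rfl⟩, (h.ker_q hx ht e1 n' (a.2.1.2 l)).2⟩)))

theorem core {Q} (h : QS G Q) {A B} (hA : A ∈ h.Sg) (hB : B ∈ h.Sg) (u : Uni k (A ⊔ B)) (n : ⁅A, B⁆ ≠ ⊥) :
    ((A ⊔ B :) : Set (End k M)ˣ) ⊆ quadraticUnipotentCore G ⁅A, B⁆ := by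
  obtain ⟨s, hs, rfl⟩ := hA
  obtain ⟨t, ht, rfl⟩ := hB
  have e : s * (t * s) = 0 := by_contra fun e => h.not_uni hs ht e u
  have n' : s * t - t * s ≠ 0 := fun e => n (h.commute hs ht (sub_eq_zero.1 e))
  have T := h.t3 hs ht e n'
  have e' := h.swap hs.1 ht e
  have a1 := (h.comm' hs.1 ht e' e n').1
  have k1 := fun x => core0 h hs ht e n' (x := x)
  have k2 := fun x => core0 h ht hs e' (by rwa [← neg_sub, neg_ne_zero]) (x := x)
  rw [← neg_sub] at k2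
  simp only [neg_mul, mul_neg, neg_eq_zero, LinearMap.neg_apply, range_neg] at k2
  have ce := h.comm_eq hs ht e n'
  generalize s * t - t * s = q at *
  have f1 : fixedSubmodule (h.EG q) = ker q := le_antisymm ((iInf₂_le _ (h.un_mem (h.self a1.1))).trans (by simp))
    (le_iInf₂ fun g i => i.2.1.2)
  have f2 : commutatorSubmodule (h.EG q) = range q := le_antisymm (iSup₂_le fun g i => i.2.1.1)
    (le_iSup₂_of_le _ (h.un_mem (h.self a1.1)) (by simp))
  let U : Subgroup (End k M)ˣ :=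
    { carrier := {g | q * g = q ∧ g * q = q ∧ ∀ m, q m = 0 → g.1 m - m ∈ range q}
      one_mem' := ⟨by simp, by simp, fun m _ => ⟨0, by simp⟩⟩
      mul_mem' := fun {a b} i j => ⟨by simp [← mul_assoc, i.1, j.1], by simp [mul_assoc, i.2.1, j.2.1], fun m l => by
        simpa using add_mem (i.2.2 (b.1 m) (by rw [← End.mul_apply, j.1, l])) (j.2.2 m l)⟩
      inv_mem' := fun {a} i => ⟨by rw [Units.mul_inv_eq_iff_eq_mul, i.1], by rw [Units.inv_mul_eq_iff_eq_mul, i.2.1],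
        fun m l => by simpa [← End.mul_apply] using neg_mem (i.2.2 ((a⁻¹).1 m) (by
          rw [← i.1, End.mul_apply, ← End.mul_apply, i.1, ← End.mul_apply, ← i.1, mul_assoc]; simpa using l))⟩ }
  have le : ∀ s, (∀ x ∈ h.Ee s, q * x = 0 ∧ x * q = 0 ∧ ∀ m, q m = 0 → x m ∈ range q) → h.EG s ≤ U := fun s i g hg =>
    ⟨by simpa [mul_sub, sub_eq_zero] using (i _ hg).1, by simpa [sub_mul, sub_eq_zero] using (i _ hg).2.1, (i _ hg).2.2⟩
  intro g hg
  obtain ⟨a, b, c⟩ := sup_le (le s k1) (le t k2) hg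
  refine ⟨sup_le h.EG_le h.EG_le hg, cj_eq_iff.1 (cj_of_comm fun x i => cen_of (comm_sup T.cA T.cB) i hg), ?_⟩
  rw [ce, f1, f2]
  exact ⟨fun m => by rw [mem_ker, map_sub, ← End.mul_apply, a, sub_self], c, by
    rintro _ ⟨m, rfl⟩; rw [← End.mul_apply, b]⟩

end QP
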