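import Cfsg.Agent.QP.A
import Cfsg.Agent.H5.RootGen

/-! Two quadratic endomorphisms. -/
namespace QP
open Cfsg RS Submodule Module LinearMap Polynomial

variable {k M : Type*} [Field k] [AddCommGroup M] [Module k M]

open scoped Pointwise in
theorem cols {K : Type*} [Field K] [Algebra k K] (h2 : ringChar k ≠ 2) (h3 : Nat.card k ≠ 3) {α : K}
    (hα : IsAlgebraic k α) (h0 : α ≠ 0) (hK : ∀ x : K, ∃ p : k[X], aeval α p = x) {D : K → K → Prop} (d0 : D 0 1)
    (hx : ∀ c u v, D u v → D (u + algebraMap k K c * v) v) (hy : ∀ c u v, D u v → D u (v + algebraMap k K c * α * u))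
    {u v : K} (n : u ≠ 0 ∨ v ≠ 0) : D u v := by
  let Γ := MulAction.stabilizer (H5.SL2 K) {w : Fin 2 → K | D (w 0) (w 1)}
  have m : ∀ g : H5.SL2 K, (∀ u v, D u v → D (g 0 0 * u + g 0 1 * v) (g 1 0 * u + g 1 1 * v)) →
      ∀ w ∈ {w : Fin 2 → K | D (w 0) (w 1)}, g • w ∈ {w : Fin 2 → K | D (w 0) (w 1)} := fun g i w e => by
    simpa [Matrix.SpecialLinearGroup.smul_def, Matrix.mulVec, dotProduct] using i _ _ e
  have m' : ∀ g : H5.SL2 K, (∀ u v, D u v → D (g 0 0 * u + g 0 1 * v) (g 1 0 * u + g 1 1 * v)) →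
      (∀ u v, D u v → D (g⁻¹ 0 0 * u + g⁻¹ 0 1 * v) (g⁻¹ 1 0 * u + g⁻¹ 1 1 * v)) → g ∈ Γ := fun g i j =>
    MulAction.mem_stabilizer_set.2 fun w => ⟨fun e => by simpa using m _ j _ e, m _ i w⟩
  have := H5.rootgen_top (G := Γ) (fun c => m' _ (by simpa using hx c) (by simpa [H5.sl2_inv] using hx (-c)))
    (fun c => m' _ (by simpa [add_comm] using hy c) (by simpa [H5.sl2_inv, add_comm] using hy (-c))) h2 h3 hα h0 hK
  have e : ∀ a c h, D u v := fun a c h => by
    simpa [Matrix.SpecialLinearGroup.smul_def] using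
      (MulAction.mem_stabilizer_set.1 (this.ge (Subgroup.mem_top (H5.sl2 a u c v h))) ![0, 1]).2 (show D _ _ from d0)
  rcases n with n | n
  · exact e 0 (-u⁻¹) (by simp [n])
  · exact e v⁻¹ 0 (by simp [n])

/-- centralizer -/
abbrev Cz (c : End k M) := Subalgebra.centralizer k {c}

/-- `c` itself -/
def Cz.self (c : End k M) : Cz c := ⟨c, by rintro _ rfl; rfl⟩

noncomputable instance (c : End k M) : Algebra k[X] (Cz c) :=
  (aeval (Cz.self c)).toRingHom.toAlgebra' fun p x => by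
    have : Commute (Cz.self c) x := Subtype.ext (x.2 c rfl)
    induction p using Polynomial.induction_on' with
    | add p q i j => simp only [map_add, add_mul, mul_add, i, j]
    | monomial n a => simpa using (Commute.mul_left (Algebra.commutes a x) (this.pow_left n)).eq

variable {c : End k M} {G : Subgroup (End k M)ˣ} {Q : Set (End k M)} {s t x : Cz c} {a γ r p q π : k[X]} {m : M}

theorem coe_smul (p : k[X]) (x : Cz c) : (p • x).1 = aeval c p * x.1 :=
  congrArg (· * x.1) (aeval_algHom_apply (Cz c).val (Cz.self c) p).symm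

theorem coe_C (β : k) (x : Cz c) : (C β • x).1 = β • x.1 := by rw [coe_smul, aeval_C, Algebra.smul_def]

theorem coe_X (x : Cz c) : ((X : k[X]) • x).1 = c * x.1 := by simp [coe_smul]

theorem cop (h : IsCoprime p q) (i : p • x = 0) (j : q • x = 0) : x = 0 := by
  obtain ⟨u, v, e⟩ := h
  rw [← one_smul k[X] x, ← e, add_smul, mul_smul, mul_smul, i, j]; simp

theorem ev_dvd (h : p ∣ q) (i : (p • x).1 m = 0) : (q • x).1 m = 0 := by
  obtain ⟨u, rfl⟩ := h
  rw [mul_comm, mul_smul, coe_smul, End.mul_apply, i, map_zero]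

theorem cop' (h : IsCoprime p q) (i : (p • x).1 m = 0) (j : (q • x).1 m = 0) : x.1 m = 0 := by
  obtain ⟨u, v, e⟩ := h
  rw [← one_smul k[X] x, ← e, add_smul]
  simp [ev_dvd (dvd_mul_left p u) i, ev_dvd (dvd_mul_left q v) j]

theorem exists_irr (p : k[X]) : p ≠ 0 → ∀ m, x.1 m ≠ 0 → (p • x).1 m = 0 →
    ∃ π, Irreducible π ∧ π ∣ p ∧ ∃ m, x.1 m ≠ 0 ∧ (π • x).1 m = 0 := by
  induction p using WfDvdMonoid.induction_on_irreducible with
  | zero => simp
  | unit u hu => exact fun _ m i j => absurd (by simpa using ev_dvd (q := 1) hu.dvd j) i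
  | mul a i a0 hi ih =>
    intro _ m m0 e
    by_cases h : (a • x).1 m = 0
    · obtain ⟨π, h1, h2, h3⟩ := ih a0 m m0 h
      exact ⟨π, h1, h2.mul_left _, h3⟩
    · have k1 : ∀ y : Cz c, y.1 ((a • 1 : Cz c).1 m) = (a • y).1 m := fun y => by
        rw [← End.mul_apply, ← MulMemClass.coe_mul, mul_smul_comm, mul_one]
      exact ⟨i, hi, dvd_mul_right _ _, (a • 1 : Cz c).1 m, by rwa [k1], by rwa [k1, smul_smul, mul_comm]⟩

variable [FiniteDimensional k M]

theorem exists_pi (h : ∀ n, c ^ n * x.1 ≠ 0) :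
    ∃ π : k[X], Irreducible π ∧ ¬ π ∣ X ∧ ∃ m, x.1 m ≠ 0 ∧ (π • x).1 m = 0 := by
  have p0 := minpoly.ne_zero (Algebra.IsIntegral.isIntegral (R := k) c)
  obtain ⟨q, e, hq⟩ := exists_eq_pow_rootMultiplicity_mul_and_not_dvd _ p0 0
  generalize rootMultiplicity (0 : k) _ = n at e
  rw [C_0, sub_zero] at e hq
  obtain ⟨m, hm⟩ := DFunLike.ne_iff.1 (h n)
  have k1 : ∀ y : Cz c, y.1 (((X : k[X]) ^ n • 1 : Cz c).1 m) = ((X : k[X]) ^ n • y).1 m := fun y => by
    rw [← End.mul_apply, ← MulMemClass.coe_mul, mul_smul_comm, mul_one]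
  obtain ⟨π, h1, h2, h3⟩ := exists_irr (x := x) q (by rintro rfl; simp at hq)
    (((X : k[X]) ^ n • 1 : Cz c).1 m) (by rw [k1]; simpa [coe_smul] using hm)
    (by rw [k1, smul_smul, ← e, coe_smul, minpoly.aeval]; simp)
  exact ⟨π, h1, fun i => hq ((h1.associated_of_dvd irreducible_X i).symm.dvd.trans h2), h3⟩

theorem QS.dich' (ht : t.1 ∈ Mn Q) (h : (p • t).1 ∈ Q) (m0 : t.1 m ≠ 0) (e : (p • t).1 m = 0) : p • t = 0 := by
  rw [coe_smul] at h e
  exact Subtype.ext (coe_smul p t ▸ (QS.dich ht h).resolve_right fun i => m0 (i m e))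

/-- columns -/
def Col (Q : Set (End k M)) (s t : Cz c) (a γ : k[X]) : Prop :=
  (a ^ 2 • s + (a * γ) • (t * s - s * t) - (γ ^ 2 * X) • t).1 ∈ Mn Q

/-- set-up -/
structure Two (s t : Cz c) : Prop where
  ss : s * s = 0
  tt : t * t = 0
  ts : t * s = (X : k[X]) • 1 - s * t

omit [FiniteDimensional k M] in
theorem Two.symm (h : Two s t) : Two t s := ⟨h.tt, h.ss, by simp [h.ts]⟩
omit [FiniteDimensional k M] in
theorem Two.ss' (h : Two s t) (x) : s * (s * x) = 0 := by rw [← mul_assoc, h.ss, zero_mul]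
omit [FiniteDimensional k M] in
theorem Two.tt' (h : Two s t) (x) : t * (t * x) = 0 := by rw [← mul_assoc, h.tt, zero_mul]
omit [FiniteDimensional k M] in
theorem Two.ts' (h : Two s t) (x) : t * (s * x) = (X : k[X]) • x - s * (t * x) := by
  rw [← mul_assoc, h.ts, sub_mul, smul_mul_assoc, one_mul, mul_assoc]

omit [FiniteDimensional k M] in
theorem exists_two {s t : End k M} (ss : s * s = 0) (tt : t * t = 0) :
    ∃ s' t' : Cz (s * t + t * s), s'.1 = s ∧ t'.1 = t ∧ Two s' t' :=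
  ⟨⟨s, by rintro _ rfl; simp [mul_add, add_mul, mul_assoc, ss, ← mul_assoc s s]⟩,
    ⟨t, by rintro _ rfl; simp [mul_add, add_mul, mul_assoc, tt, ← mul_assoc t t]⟩, rfl, rfl,
    Subtype.ext ss, Subtype.ext tt, Subtype.ext (by simp [coe_X])⟩

theorem Col.cx (h : QS G Q) (T : Two s t) (i : Col Q s t a γ) (j : (r • s).1 ∈ Q) : Col Q s t (a + r * γ * X) γ := by
  have : ((1 + r • s) * _ * (1 - r • s)).1 ∈ _ := h.cjm j i
  unfold Col
  convert this using 2
  simp [mul_add, add_mul, mul_sub, sub_mul, mul_assoc, T.ss, T.tt, T.ts, T.ss', T.tt', T.ts', smul_sub]; module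

theorem Col.cy (h : QS G Q) (T : Two s t) (i : Col Q s t a γ) (j : (r • t).1 ∈ Q) : Col Q s t a (γ + r * a) := by
  have : ((1 + r • t) * _ * (1 - r • t)).1 ∈ _ := h.cjm j i
  unfold Col
  convert this using 2
  simp [mul_add, add_mul, mul_sub, sub_mul, mul_assoc, T.ss, T.tt, T.ts, T.ss', T.tt', T.ts', smul_sub]; module

theorem exists_col (h : QS G Q) (T : Two s t) (hs : s.1 ∈ Mn Q) (ht : t.1 ∈ Q) [Fact (Irreducible π)]
    (hπ : ¬ π ∣ X) {u v : AdjoinRoot π} (n : u ≠ 0 ∨ v ≠ 0) :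
    ∃ a γ, Col Q s t a γ ∧ X ∣ a - 1 ∧ AdjoinRoot.mk π γ = u ∧ AdjoinRoot.mk π a = v := by
  refine cols (D := fun u v => ∃ a γ, Col Q s t a γ ∧ X ∣ a - 1 ∧ AdjoinRoot.mk π γ = u ∧ AdjoinRoot.mk π a = v)
    h.h2 h.h3 (α := AdjoinRoot.root π) ⟨π, Irreducible.ne_zero Fact.out, by simp⟩
    (by rwa [← AdjoinRoot.mk_X, ne_eq, AdjoinRoot.mk_eq_zero])
    (fun x => by simpa using AdjoinRoot.mk_surjective x) ⟨1, 0, by simpa [Col] using hs, by simp⟩ ?_ ?_ n
  · rintro β _ _ ⟨a, γ, i, j, rfl, rfl⟩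
    exact ⟨_, _, i.cy h T (r := C β) (coe_C β t ▸ h.smul _ ht β), j, by simp, rfl⟩
  · rintro β _ _ ⟨a, γ, i, j, rfl, rfl⟩
    exact ⟨_, _, i.cx h T (r := C β) (coe_C β s ▸ h.smul _ hs.1 β), by
      rw [add_sub_right_comm]; exact dvd_add j (dvd_mul_left _ _), rfl, by simp [mul_right_comm]⟩

end QP
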