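import Cfsg.Agent.QP.P

/-! The dichotomy for two quadratic endomorphisms. -/
namespace QP
open Cfsg RS Submodule Module LinearMap Polynomial

variable {k M : Type*} [Field k] [AddCommGroup M] [Module k M] [FiniteDimensional k M]
variable {c : End k M} {G : Subgroup (End k M)ˣ} {Q : Set (End k M)} {s t x : Cz c} {a γ r p q π : k[X]} {m : M}

theorem half (h : QS G Q) (e : (2 * p) • x = 0) : p • x = 0 :=
  cop (p := 2) (isCoprime_zero_right.2 (isUnit_C.2 h.two.isUnit)) (mul_smul 2 p x ▸ e) (x := p • x) (q := 0) (by simp)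

theorem stepA (h : QS G Q) (T : Two s t) (ht : t.1 ∈ Mn Q) (i : Col Q s t a γ) (m0 : t.1 m ≠ 0)
    (hm : (π • t).1 m = 0) (hX : IsCoprime π X) (ha : π ∣ a)
    (ih : ∀ s' ∈ Mn Q, rk (s' * t.1 + t.1 * s') < rk c → t.1 * (s' * t.1) = 0 ∨ Inj (s' * t.1 + t.1 * s') t.1) :
    (a ^ 2 * X) • t = 0 ∧ a ^ 2 • (t * s - s * t) = (2 * (a * γ * X)) • t := by
  obtain ⟨s', hs'⟩ : ∃ s', s' = a ^ 2 • s + (a * γ) • (t * s - s * t) - (γ ^ 2 * X) • t := ⟨_, rfl⟩
  rw [Col, ← hs'] at i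
  have e1 : s' * t = a ^ 2 • (s * t) + (a * γ * X) • t := by
    simp [hs', add_mul, sub_mul, mul_assoc, T.tt, T.ts', smul_smul]
  have e2 : t * s' = a ^ 2 • (t * s) - (a * γ * X) • t := by
    simp [hs', mul_add, mul_sub, T.tt, T.ts', T.tt', mul_smul]; module
  have e3 : s'.1 * t.1 + t.1 * s'.1 = ((a ^ 2 * X) • 1 : Cz c).1 := by
    change (s' * t + t * s').1 = _
    rw [e1, e2, T.ts]; congr 1; module
  have e4 : ((a ^ 2 * X) • 1 : Cz c).1 * t.1 = ((a ^ 2 * X) • t).1 := by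
    rw [← MulMemClass.coe_mul, smul_mul_assoc, one_mul]
  have a2 : π ∣ a ^ 2 := dvd_pow ha two_ne_zero
  have E1 : (a ^ 2 * X) • t = 0 := by
    rcases ih _ i (by
      rw [e3, mul_smul, coe_smul, coe_X, OneMemClass.coe_one, mul_one]
      obtain ⟨u, w, e⟩ := hX
      have : c ((w • t).1 m) = t.1 m := by
        rw [← End.mul_apply, ← coe_X, smul_smul, mul_comm, eq_sub_of_add_eq' e, sub_smul]
        simp [ev_dvd (dvd_mul_left π u) hm]
      exact not_le.1 fun l => m0 (this ▸ inj_of l _ (by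
        rw [this, ← End.mul_apply, ← coe_smul, ev_dvd a2 hm]))) with j | j
    · have : t * (s' * t) = 0 := Subtype.ext j
      simpa [e1, mul_add, T.tt, T.ts', T.tt', mul_smul, smul_comm _ (X : k[X])] using this
    · exact absurd (j m (by rw [e3, ← End.mul_apply, e4, ev_dvd (a2.mul_right _) hm])) m0
  refine ⟨E1, ?_⟩
  have f1 : t.1 * (s'.1 * t.1) = 0 := by
    change (t * (s' * t)).1 = (0 : Cz c).1
    congr 1
    simpa [e1, mul_add, T.tt, T.ts', T.tt', mul_smul, smul_comm _ (X : k[X])] using E1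
  have f2 := h.nil 2 ht.1 i (by
    rw [add_comm, sq]
    nth_rw 1 [e3]
    rw [mul_add, ← mul_assoc, ← mul_assoc, e4, E1, ← MulMemClass.coe_mul, smul_mul_assoc, one_mul,
      ← MulMemClass.coe_mul, smul_mul_assoc, ← mul_smul_comm, E1]
    simp)
  by_contra n
  have n' : s'.1 * t.1 - t.1 * s'.1 ≠ 0 := fun e => n (by
    have : s' * t - t * s' = 0 := Subtype.ext e
    rw [e1, e2] at this
    linear_combination (norm := module) -this)
  obtain ⟨-, g1, g2, -⟩ := h.comm' i.1 ht f1 f2 n'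
  have x1 : (X : k[X]) • (s' * t) = (a * γ * X ^ 2) • t := by
    rw [e1, smul_add, smul_smul, mul_comm, ← mul_smul_comm, E1]; simp [smul_smul]; ring_nf
  have x2 : (X : k[X]) • (t * s') = -((a * γ * X ^ 2) • t) := by
    rw [e2, smul_sub, smul_smul, mul_comm, ← smul_mul_assoc, E1]; simp [smul_smul]; ring_nf
  have x3 : ∀ m, ((a * γ * X ^ 2) • t).1 m = 0 := fun m => (mem_bot k).1 (g2.le
    ⟨⟨((X : k[X]) • 1 : Cz c).1 m, by
      rw [← x1, ← End.mul_apply, ← MulMemClass.coe_mul, ← MulMemClass.coe_mul]; simp⟩,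
    (neg_mem_iff.1 ⟨((X : k[X]) • 1 : Cz c).1 m, by
      rw [← End.mul_apply, ← MulMemClass.coe_mul, ← MulMemClass.coe_mul, mul_smul_comm, mul_one, x2]; rfl⟩)⟩)
  obtain ⟨m', e⟩ := g1.le (⟨⟨m, rfl⟩, by
    change (s' * t).1 m = 0
    rw [e1, ← mul_smul_comm]
    simp [-mul_smul_comm, -Algebra.mul_smul_comm, ev_dvd a2 hm, ev_dvd ((ha.mul_right γ).mul_right X) hm]⟩ : t.1 m ∈ range t.1 ⊓ ker s'.1)
  refine m0 (cop' hX hm ?_)
  rw [coe_X, End.mul_apply, ← e, ← End.mul_apply, ← MulMemClass.coe_mul, ← coe_X, x2]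
  simp [x3]

theorem exists_z (h : QS G Q) : ∃ z : k, z ≠ 0 ∧ z ^ 2 ≠ 1 := by
  by_contra! e
  refine h.h3 ?_
  have : (Set.univ : Set k) = {0, 1, -1} := (Set.eq_univ_of_forall fun z => by
    by_cases i : z = 0
    · simp [i]
    · simpa [i] using sq_eq_one_iff.1 (e z i)).symm
  have n : (1 : k) ≠ -1 := fun e => h.two (by linear_combination e)
  rw [← Set.ncard_univ, this, Set.ncard_eq_three]
  exact ⟨_, _, _, by simp, by simp, n, rfl⟩

theorem QS.pair (h : QS G Q) (n : ℕ) : ∀ {s t}, s ∈ Mn Q → t ∈ Mn Q → rk (s * t + t * s) = n →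
    t * (s * t) = 0 ∨ Inj (s * t + t * s) t := by
  induction n using Nat.strong_induction_on with
  | _ n ih =>
  intro s₀ t₀ hs ht hn
  obtain ⟨s, t, e1, e2, T⟩ := exists_two (h.sq _ hs.1) (h.sq _ ht.1)
  generalize hc : s₀ * t₀ + t₀ * s₀ = c at *
  subst e1 e2 hn
  by_cases nl : ∀ n, c ^ n * t.1 ≠ 0
  swap
  · push Not at nl
    obtain ⟨n, e⟩ := nl
    refine .inl (h.nil (n + 1) hs.1 ht ?_)
    have cs : Commute c s.1 := s.2 c rfl
    rw [hc, pow_succ, ← hc, mul_add, hc, ← mul_assoc, (cs.pow_left n).eq, mul_assoc, ← mul_assoc _ t.1, e]; simp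
  obtain ⟨π, hπ, hX, m, m0, hm⟩ := exists_pi nl
  haveI := Fact.mk hπ
  have cX := hπ.coprime_iff_not_dvd.2 hX
  have key : ∀ z : k, z ≠ 0 → ∃ a γ : k[X], (a ^ 2 • s - (γ ^ 2 * X) • t).1 ∈ Q ∧ X ∣ a - 1 ∧ π ∣ γ - C z ∧
      (a ^ 2 * X) • t = 0 ∧ (a ^ 3 * X) • s = 0 ∧ (a ^ 2 * X ^ 2) • s = 0 := fun z z0 => by
    obtain ⟨a, γ, i, j, e1, e2⟩ := exists_col h T hs ht.1 hX (u := AdjoinRoot.mk π (C z)) (v := 0) (.inl (by simpa))
    obtain ⟨E1, E2⟩ := stepA h T ht i m0 hm cX (AdjoinRoot.mk_eq_zero.1 e2) fun s' a b => ih _ b a ht rfl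
    have f1 : (a ^ 2 * X) • (s * t) = 0 := by rw [← mul_smul_comm, E1, mul_zero]
    have f2 : (a ^ 2 * X) • (t * s) = 0 := by rw [← smul_mul_assoc, E1, zero_mul]
    have f3 : (a * γ * X ^ 2) • t = 0 := half h (by linear_combination (norm := module) f2 - f1 - (X : k[X]) • E2)
    have f4 : (a * γ * X ^ 2) • (s * t) = 0 := by rw [← mul_smul_comm, f3, mul_zero]
    have f5 : (a * γ * X ^ 2) • (t * s) = 0 := by rw [← smul_mul_assoc, f3, zero_mul]
    have f6 : (a * γ) • (t * s - s * t) = 0 := cop (p := a ^ 2) (q := X ^ 2)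
      (by obtain ⟨u, e⟩ := j; exact IsCoprime.pow ⟨1, -u, by linear_combination e⟩)
      (by linear_combination (norm := module) (a * γ) • E2 + (2 * γ ^ 2) • E1) (by linear_combination (norm := module) f5 - f4)
    have f7 := congrArg (s * ·) E2
    have f8 := congrArg (· * s) f1
    simp [mul_sub, T.ts, T.ss', T.ss, mul_assoc s] at f7 f8
    exact ⟨a, γ, by simpa [Col, f6] using i.1, j, AdjoinRoot.mk_eq_mk.1 e1, E1,
      by linear_combination (norm := module) a • f7 + (2 * γ) • f1, by linear_combination (norm := module) f8⟩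
  obtain ⟨z, z0, z1⟩ := exists_z h
  obtain ⟨a, γ, i1, i2, i3, i4, i5, i6⟩ := key 1 one_ne_zero
  obtain ⟨b, δ, j1, j2, j3, j4, j5, j6⟩ := key z z0
  have w : a ^ 2 • s = b ^ 2 • s := by
    obtain ⟨u, e⟩ := i2
    obtain ⟨v, e'⟩ := j2
    exact sub_eq_zero.1 (cop (p := a ^ 3) (q := X ^ 2) (IsCoprime.pow ⟨1, -u, by linear_combination e⟩)
      (by linear_combination (norm := module) ((a + b) * (u - v)) • i5 + (a ^ 3 * (a + b) * (e - e')) • s)
      (by linear_combination (norm := module) i6 - j6))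
  have y : (((δ ^ 2 - γ ^ 2) * X) • t).1 ∈ Q := by
    have k1 : ∀ a b γ δ : k[X], (a ^ 2 * X) • t = 0 → (b ^ 2 * X) • t = 0 →
        (a ^ 2 • s - (γ ^ 2 * X) • t).1 * (b ^ 2 • s - (δ ^ 2 * X) • t).1 = 0 := fun a b γ δ i j => by
      change (_ * _ : Cz c).1 = (0 : Cz c).1
      congr 1
      have f1 := congrArg (s * ·) i
      have f2 := congrArg (· * s) j
      simp [mul_sub, sub_mul, T.ss, T.tt] at f1 f2 ⊢
      linear_combination (norm := module) (-δ ^ 2) • f1 - γ ^ 2 • f2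
    have : (_ - _ : Cz c).1 ∈ _ := h.sub i1 j1 (k1 _ _ _ _ i4 j4) (k1 _ _ _ _ j4 i4)
    convert this using 2
    rw [w]; module
  rw [coe_smul] at y
  refine .inr ((QS.dich ht y).elim (fun e => absurd (cop' (q := (δ ^ 2 - γ ^ 2) * X) (IsCoprime.mul_right ?_ cX) hm
    (by rw [coe_smul, e]; rfl)) m0) fun j m e => j m (by simp [e]))
  refine hπ.coprime_iff_not_dvd.2 fun d => hπ.not_isUnit (isUnit_of_dvd_unit (y := C (z ^ 2 - 1)) ?_
    (isUnit_C.2 (sub_ne_zero.2 z1).isUnit))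
  convert dvd_add (dvd_sub d (j3.mul_left (δ + C z))) (i3.mul_left (γ + 1)) using 1
  simp; ring

end QP
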