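import Cfsg.Agent.QP.C
import Cfsg.Agent.S5016

/-! Representations of `SL₂`. -/
namespace QP
open Cfsg RS Submodule Module H5

section
variable {Z R K : Type*} [CommRing Z] [Ring R] [Algebra Z R] [Field K] {s u : R}

/-- the representation -/
def Fm (s u : R) (g : Matrix (Fin 2) (Fin 2) Z) : R :=
  1 + (g 0 0 - 1) • (s * u) + g 0 1 • s + g 1 0 • u + (g 1 1 - 1) • (u * s)

theorem exists_rep (ss : s * s = 0) (uu : u * u = 0) (e1 : s * (u * s) = s) (e2 : u * (s * u) = u) (φ : Z →+* K)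
    (hφ : Function.Surjective φ) (hk : ∀ z, φ z = 0 ↔ z • s = 0) : ∃ F : SL2 K →* Rˣ, Function.Injective F ∧
      (∀ z, (F (sl2 1 (φ z) 0 1 (by simp))).1 = 1 + z • s) ∧ ∀ z, (F (sl2 1 0 (φ z) 1 (by simp))).1 = 1 + z • u := by
  have a1 : ∀ x, s * (s * x) = 0 := fun x => by rw [← mul_assoc, ss, zero_mul]
  have a2 : ∀ x, u * (u * x) = 0 := fun x => by rw [← mul_assoc, uu, zero_mul]
  have a3 : ∀ x, s * (u * (s * x)) = s * x := fun x => by simpa [mul_assoc] using congrArg (· * x) e1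
  have a4 : ∀ x, u * (s * (u * x)) = u * x := fun x => by simpa [mul_assoc] using congrArg (· * x) e2
  have mul : ∀ g h : Matrix (Fin 2) (Fin 2) Z, Fm s u (g * h) = Fm s u g * Fm s u h := fun g h => by
    simp [Fm, Matrix.mul_apply, mul_add, add_mul, mul_assoc, ss, uu, e1, e2, a1, a2, a3, a4]; module
  have cg : ∀ g h : Matrix (Fin 2) (Fin 2) Z, g.map φ = h.map φ → Fm s u g = Fm s u h := fun g h e => by
    have : ∀ i j, (g i j - h i j) • s = 0 := fun i j => (hk _).1 (by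
      rw [map_sub, sub_eq_zero]; exact congrFun₂ e i j)
    have f1 := congrArg (· * u) (this 0 0)
    have f2 := congrArg (u * · * u) (this 1 0)
    have f3 := congrArg (u * ·) (this 1 1)
    simp only [smul_mul_assoc, mul_smul_comm, mul_zero, zero_mul, mul_assoc, e2] at f1 f2 f3
    simp only [Fm]
    linear_combination (norm := module) f1 + this 0 1 + f2 + f3
  choose ψ hψ using hφ
  have mm : ∀ g : Matrix (Fin 2) (Fin 2) K, (g.map ψ).map φ = g := fun g => by ext; simp [hψ]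
  let F : SL2 K →* R :=
    { toFun := fun g => Fm s u (g.1.map ψ)
      map_one' := (cg _ 1 (by simp [mm])).trans (by simp [Fm])
      map_mul' := fun g h => (cg _ _ (by rw [Matrix.map_mul]; simp [mm])).trans (mul _ _) }
  refine ⟨F.toHomUnits, (injective_iff_map_eq_one _).2 fun g e => ?_,
    fun z => (cg _ !![1, z; 0, 1] (by rw [mm]; ext i j; fin_cases i <;> fin_cases j <;> simp)).trans (by simp [Fm]),
    fun z => (cg _ !![1, 0; z, 1] (by rw [mm]; ext i j; fin_cases i <;> fin_cases j <;> simp)).trans (by simp [Fm])⟩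
  have e : Fm s u (g.1.map ψ) = 1 := congrArg Units.val e
  have f1 := congrArg (s * u * · * s) e
  have f2 := congrArg (s * u * · * (u * s)) e
  have f3 := congrArg (s * · * s) e
  have f4 := congrArg (s * · * (u * s)) e
  simp [Fm, mul_add, add_mul, mul_assoc, ss, uu, e1, e2, a1, a2, a3, a4, ← hk, hψ, sub_eq_zero] at f1 f2 f3 f4
  obtain ⟨a, b, c, d, h, rfl⟩ := exists_sl2 g
  exact (sl2_eq_iff.2 ⟨f1, f2, f3, f4⟩).trans one_eq_sl2.symm
end

variable {k M : Type*} [Field k] [AddCommGroup M] [Module k M] [FiniteDimensional k M]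
variable {G : Subgroup (End k M)ˣ} {Q : Set (End k M)} {A B : Subgroup (End k M)ˣ}

theorem QS.psl (h : QS G Q) (hA : A ∈ h.Sg) (hB : B ∈ h.Sg) (r : R1 A B) :
    ∃ A₀ B₀, A₀ ≤ A ∧ B₀ ≤ B ∧ IsPSL2PairOver k A₀ B₀ := by
  have n := ((h.tri hA hB).resolve_left fun e => e.2.elim r.not_comm fun t => by
    obtain ⟨a, i, a1⟩ := exists_ne_one r.ne_bot
    exact (r.cj_pair i a1).not_comm (comm_mono (comm_sup (h.ab hB) (comm_symm t.symm.cA)) le_rfl (cj_le_comm i))).1
  obtain ⟨s, hs, rfl⟩ := hA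
  obtain ⟨t, ht, rfl⟩ := hB
  obtain ⟨u, j, u0, e1, e2⟩ := h.opp hs ht fun e => n (h.uni hs ht e)
  obtain ⟨F, f, f1, f2⟩ := exists_rep (h.sq s hs.1) (h.sq u j.1) e1 e2 (RingHom.id k) (fun x => ⟨x, rfl⟩)
    (by simp [hs.2.1])
  refine ⟨_, _, ?_, ?_, F, ?_, by simp [(MonoidHom.ker_eq_bot_iff F).2 f], rfl, rfl⟩
  · rintro _ ⟨g, i, rfl⟩
    obtain ⟨b, rfl⟩ := (Cfsg.Agent.S5016.hup g).1 i
    rw [h.mem_EG, show (F (H5.up b)).1 = _ from f1 b, add_sub_cancel_left]
    exact smul_mem _ b (h.self hs.1)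
  · rintro _ ⟨g, i, rfl⟩
    obtain ⟨b, rfl⟩ := (Cfsg.Agent.S5016.hlo g).1 i
    rw [h.mem_EG, show (F (sl2 1 0 b 1 _)).1 = _ from f2 b, add_sub_cancel_left]
    exact smul_mem _ b j
  · rw [← Subgroup.map_sup, sup_comm, (Cfsg.Agent.S5016.result k).1.1, MonoidHom.range_eq_map]

end QP
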