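import Cfsg.Agent.QP.E
import Cfsg.Agent.RS.Sp

/-! The trichotomy for root subgroups of a quadratic system. -/
namespace QP
open Cfsg RS Submodule Module LinearMap
open scoped commutatorElement

variable {k M : Type*} [Field k] [AddCommGroup M] [Module k M]
variable {G : Subgroup (End k M)ˣ} {Q : Set (End k M)} {s t u x y q : End k M} {g : (End k M)ˣ}

@[simp] theorem un_val (h : s * s = 0) : (un s h).1 = 1 + s := rfl
@[simp] theorem un_inv (h : s * s = 0) : (un s h)⁻¹.1 = 1 - s := rfl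
theorem un_eq_one (h : s * s = 0) : un s h = 1 ↔ s = 0 := by simp [Units.ext_iff]

/-- elements trivial outside an idempotent -/
def Ce (e : End k M) : Subgroup (End k M)ˣ where
  carrier := {g | e * g = e ∧ g * e = e}
  one_mem' := by simp
  mul_mem' {a b} i j := by simp [← mul_assoc e, i.1, j.1, mul_assoc, j.2, i.2]
  inv_mem' {a} i := ⟨by rw [Units.mul_inv_eq_iff_eq_mul, i.1], by rw [Units.inv_mul_eq_iff_eq_mul, i.2]⟩

namespace QS

/-- the set of root subgroups -/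
def Sg (h : QS G Q) : Set (Subgroup (End k M)ˣ) := {A | ∃ s ∈ Mn Q, A = h.EG s}

theorem le_Ce (h : QS G Q) {e : End k M} (i : e * s = 0) (j : s * e = 0) : h.EG s ≤ Ce e := fun g a =>
  ⟨by simpa [mul_sub, sub_eq_zero] using a.2.1.r i, by simpa [sub_mul, sub_eq_zero] using a.2.1.l j⟩

variable [FiniteDimensional k M]

theorem uni (h : QS G Q) (hs : s ∈ Mn Q) (ht : t ∈ Mn Q) (e : s * (t * s) = 0) : Uni k (h.EG s ⊔ h.EG t) := by
  have z : ∀ {s t}, s ∈ Mn Q → t ∈ Mn Q → s * (t * s) = 0 → h.Ee s * (h.Ee t * h.Ee s) = 0 := fun hs ht e =>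
    le_bot_iff.1 (mul_le.2 fun x i _ j => Submodule.mul_induction_on j (fun y j x' i' => h.sand hs ht e i i' j)
      fun a b (i : _ = _) (j : _ = _) => by simp [mul_add, i, j])
  have e1 := z hs ht e
  have e2 := z ht hs (h.swap hs.1 ht e)
  have e3 := h.Ee_mul (s := s)
  have e4 := h.Ee_mul (s := t)
  have l1 := h.sp_EG (s := s)
  have l2 := h.sp_EG (s := t)
  generalize h.Ee s = a, h.Ee t = b at *
  have m : (a + b + a * b + b * a) * (a + b + a * b + b * a) = a * b + b * a := by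
    simp only [mul_add, add_mul, mul_assoc, e1, e2, e3, e4, ← mul_assoc a a, ← mul_assoc b b, add_comm,
      zero_mul, mul_zero, add_zero, zero_add]
  have n : IsNilpotent (a + b + a * b + b * a) := ⟨3, by
    rw [pow_succ', pow_two, m]
    simp only [mul_add, add_mul, mul_assoc, e1, e2, e3, e4, ← mul_assoc a a, ← mul_assoc b b,
      zero_mul, mul_zero, add_zero, zero_add]⟩
  exact nil_mono n (sp_sup (by rw [m]; simp only [Submodule.add_eq_sup]; order) n (by simp only [Submodule.add_eq_sup]; order)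
    (by simp only [Submodule.add_eq_sup]; order))

theorem exists_opp (h : QS G Q) (hs : s ∈ Mn Q) : ∃ u ∈ Mn Q, s * (u * s) = s ∧ u * (s * u) = u := by
  by_contra! n
  let W := {A | ∃ s ∈ Mn Q, (∀ t ∈ Mn Q, s * (t * s) = 0) ∧ A = h.EG s}
  have c : ∀ g ∈ G, ∀ A ∈ W, conjBy A g ∈ W := by
    rintro g hg _ ⟨s, i, j, rfl⟩
    refine ⟨_, h.conjm hg i, fun t ht => ?_, h.cj_EG hg⟩
    simpa [mul_assoc] using congrArg (g.1 * · * (g⁻¹).1) (j _ (h.conjm (inv_mem hg) ht))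
  have := triv h.irr (baer (W := W) (by rintro _ ⟨s, -, -, rfl⟩ B j a i; exact c a (h.EG_le i) B j)
    (by rintro _ ⟨s, i, j, rfl⟩ _ ⟨t, i', -, rfl⟩; exact h.uni i i' (j t i'))) fun g hg => by
      simp only [conjBy, Subgroup.map_iSup]
      exact iSup₂_le fun A i => le_iSup₂_of_le _ (c g hg A i) le_rfl
  refine hs.2.1 ((un_eq_one _).1 (this.le (le_iSup₂_of_le (f := fun A (_ : A ∈ W) => A) _ ⟨s, hs, fun t ht => ?_, rfl⟩ le_rfl
    (h.un_mem (h.self hs.1)))))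
  by_contra e
  obtain ⟨u, i, u0, j⟩ := h.opp hs ht e
  exact n u (h.mn ht i u0).1 j.1 j.2

theorem ne0 (h : QS G Q) (hs : s ∈ Mn Q) (ht : t ∈ Mn Q) (n : s * (t * s) ≠ 0) (i : x ∈ h.Ee s) (x0 : x ≠ 0) :
    x * (t * x) ≠ 0 := fun e => by
  obtain ⟨a, b⟩ := h.mn hs i x0
  exact n (h.sand a ht e (h.Ee_eq hs i x0 ▸ h.self hs.1) (h.Ee_eq hs i x0 ▸ h.self hs.1) (h.self ht.1))

theorem cond (h : QS G Q) (hs : s ∈ Mn Q) (ht : t ∈ Mn Q) (n : s * (t * s) ≠ 0) {a} (ha : a ∈ h.EG s) (a1 : a ≠ 1) :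
    ∃ b ∈ h.EG t, b ≠ 1 ∧ conjBy (h.EG s) b⁻¹ = conjBy (h.EG t) a⁻¹ ∧ b⁻¹ * a * b = a⁻¹ * b⁻¹ * a := by
  obtain ⟨x, i, rfl⟩ := h.ex ha
  rw [ne_eq, un_eq_one] at a1
  obtain ⟨u, j, u0, e1, e2⟩ := h.opp (h.mn hs i a1).1 ht (h.ne0 hs ht n i a1)
  have xx := h.mul0 i i
  have uu := h.mul0 j j
  have e : (1 - u) * x * (1 + u) = -((1 - x) * u * (1 + x)) := by
    simp [mul_add, sub_mul, mul_assoc, e1, e2]
  refine ⟨_, h.un_mem j, by rwa [ne_eq, un_eq_one], ?_, Units.ext ?_⟩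
  · have m := h.conjm (inv_mem (h.EG_le ha)) (h.mn ht j u0).1
    rw [← h.EG_eq hs i a1, ← h.EG_eq ht j u0, h.cj_EG (inv_mem (h.EG_le (h.un_mem j))), h.cj_EG (inv_mem (h.EG_le ha))]
    simp only [inv_inv, un_val, un_inv, e] at m ⊢
    exact h.EG_eq m (neg_mem (h.self m.1)) (neg_ne_zero.2 m.2.1)
  · simp only [Units.val_mul, un_val, un_inv]
    linear_combination (norm := noncomm_ring) e - uu + xx

theorem special (h : QS G Q) (hs : s ∈ Mn Q) (ht : t ∈ Mn Q) (n : s * (t * s) ≠ 0) : Sp (h.EG s) (h.EG t) := by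
  have nil : ∀ s, Group.IsNilpotent (h.EG s) := fun s => ⟨1, Subgroup.upperCentralSeries_one_eq_top_iff.2
    ⟨⟨fun a b => Subtype.ext (cen_of h.EG_ab a.2 b.2)⟩⟩⟩
  have r : R1 (h.EG s) (h.EG t) := ⟨fun e => n (by
      have : s ∈ h.Ee t := by simpa [mem_EG] using e.le (h.un_mem (h.self hs.1))
      rw [h.mul0 (h.self ht.1) this, mul_zero]), nil s, nil t,
    fun a i j => (h.cond hs ht n i j).imp fun _ e => ⟨e.1, e.2.1, e.2.2.1⟩,
    fun a i j => (h.cond ht hs (mt (h.swap ht.1 hs) n) i j).imp fun _ e => ⟨e.1, e.2.1, e.2.2.1⟩⟩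
  refine ⟨r, fun a i a1 b j _ e => ?_⟩
  obtain ⟨b', j', -, e1, e2⟩ := h.cond hs ht n i a1
  rwa [← inv_injective (r.symm.uniq (inv_mem j') (inv_mem j) (e1.trans e.symm))]

omit [FiniteDimensional k M] in
theorem sup_Ce (h : QS G Q) (hs : s ∈ Q) (hu : u ∈ Q) (e1 : s * (u * s) = s) (e2 : u * (s * u) = u) :
    h.EG s ⊔ h.EG u ≤ Ce (1 - (s * u + u * s)) := by
  have ss := h.sq s hs
  have uu := h.sq u hu
  exact sup_le (h.le_Ce (by simp [sub_mul, add_mul, mul_assoc, ss, e1]) (by simp [mul_sub, mul_add, ← mul_assoc s s, ss, e1]))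
    (h.le_Ce (by simp [sub_mul, add_mul, mul_assoc, uu, e2]) (by simp [mul_sub, mul_add, ← mul_assoc u u, uu, e2]))

omit [FiniteDimensional k M] in
theorem exists_inv (h : QS G Q) (hs : s ∈ Q) (hu : u ∈ Q) (e1 : s * (u * s) = s) (e2 : u * (s * u) = u) :
    ∃ i ∈ h.EG s ⊔ h.EG u, i.1 = 1 - (2 : k) • (s * u + u * s) := by
  have ss := h.sq s hs
  have uu := h.sq u hu
  have a := Subgroup.mem_sup_left (T := h.EG u) (h.un_mem (h.self hs))
  have b := Subgroup.mem_sup_right (S := h.EG s) (inv_mem (h.un_mem (h.self hu)))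
  refine ⟨_, pow_mem (mul_mem (mul_mem a b) a) 2, ?_⟩
  simp [pow_two, mul_add, add_mul, mul_sub, sub_mul, mul_assoc, ss, uu, e1, e2, ← mul_assoc s s, ← mul_assoc u u,
    show ∀ x, s * (u * (s * x)) = s * x from fun x => by simpa [mul_assoc] using congrArg (· * x) e1,
    show ∀ x, u * (s * (u * x)) = u * x from fun x => by simpa [mul_assoc] using congrArg (· * x) e2]
  module

theorem not_uni (h : QS G Q) (hs : s ∈ Mn Q) (ht : t ∈ Mn Q) (n : s * (t * s) ≠ 0) : ¬ Uni k (h.EG s ⊔ h.EG t) := by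
  obtain ⟨u, j, u0, e1, e2⟩ := h.opp hs ht n
  rw [← h.EG_eq ht j u0]
  rintro ⟨n, hn⟩
  obtain ⟨i, a, b⟩ := h.exists_inv hs.1 j.1 e1 e2
  have : ∀ n, (i.1 - 1) ^ n * s = (-2 : k) ^ n • s := fun n => by
    induction n with
    | zero => simp
    | succ n ih =>
      rw [pow_succ, mul_assoc, show (i.1 - 1) * s = (-2 : k) • s by simp [b, add_mul, mul_assoc, e1, h.sq s hs.1],
        mul_smul_comm, ih, smul_smul, pow_succ']
  simpa [(mem_bot k).1 (hn.le (pow_mem_pow _ (mem_sp a) n)), hs.2.1, h.two] using (this n).symm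

end QS

end QP
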