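import Cfsg.Agent.QP.T

/-! The commutator case. -/
namespace QP
open Cfsg RS Submodule Module LinearMap
open scoped commutatorElement

variable {k M : Type*} [Field k] [AddCommGroup M] [Module k M] [FiniteDimensional k M]
variable {G : Subgroup (End k M)ˣ} {Q : Set (End k M)} {s t u x y q : End k M} {g : (End k M)ˣ}

namespace QS

theorem ker_q (h : QS G Q) (hs : s ∈ Mn Q) (ht : t ∈ Mn Q) (e : s * (t * s) = 0) (n : s * t - t * s ≠ 0) {m : M}
    (i : (s * t - t * s) m = 0) : (s * t) m = 0 ∧ (t * s) m = 0 := by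
  have i' : (s * t) m = (t * s) m := sub_eq_zero.1 i
  have := (mem_bot k).1 ((h.comm' hs.1 ht (h.swap hs.1 ht e) e n).2.2.1.le ⟨⟨m, rfl⟩, ⟨m, i'.symm⟩⟩)
  exact ⟨this, i' ▸ this⟩

theorem br (h : QS G Q) (hs : s ∈ Mn Q) (ht : t ∈ Mn Q) (e : s * (t * s) = 0) (n : s * t - t * s ≠ 0)
    (i : x ∈ h.Ee s) (j : y ∈ h.Ee t) : x * y - y * x ∈ h.Ee (s * t - t * s) ∧ (x * y - y * x = 0 → x = 0 ∨ y = 0) := by
  have e' := h.swap hs.1 ht e
  have n' : t * s - s * t ≠ 0 := by rwa [← neg_sub, neg_ne_zero]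
  obtain ⟨a1, a2, a3, a4⟩ := h.comm' hs.1 ht e' e n
  have b2 := (h.comm' ht.1 hs e e' n').2.1
  have r : ∀ {s t x y}, s ∈ Mn Q → t ∈ Mn Q → s * (t * s) = 0 → range s ⊓ ker t = range (s * t) →
      range t ⊓ ker s = range (t * s) → x ∈ h.Ee s → y ∈ h.Ee t →
      range (x * y) ≤ range (s * t) ∧ ker (s * t) ≤ ker (x * y) := fun {s t x y} hs ht e b a i j => by
    refine ⟨b ▸ ?_, fun m l => ?_⟩
    · rintro _ ⟨m, rfl⟩
      exact ⟨i.2.1.1 ⟨_, rfl⟩, LinearMap.congr_fun (h.sand ht hs (h.swap hs.1 ht e) (h.self ht.1) j i) m⟩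
    · obtain ⟨m', l'⟩ := a.le ⟨⟨m, rfl⟩, l⟩
      have : y (m - s m') = 0 := j.2.1.2 (by simp [← l'])
      rw [map_sub, sub_eq_zero] at this
      simpa [this] using LinearMap.congr_fun (h.sand hs ht e i (h.self hs.1) j) m'
  obtain ⟨c1, c2⟩ := r hs ht e b2 a2 i j
  obtain ⟨d1, d2⟩ := r ht hs e' a2 b2 j i
  refine ⟨(h.mem_Ee a1.1).2 ⟨h.comm i.1 j.1 (h.sand ht hs e' j j i) (h.sand hs ht e i i j), ?_, fun m l => ?_⟩, fun z => ?_⟩
  · rintro _ ⟨m, rfl⟩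
    exact a4.ge (sub_mem (mem_sup_left (c1 ⟨m, rfl⟩)) (mem_sup_right (d1 ⟨m, rfl⟩)))
  · have := h.ker_q hs ht e n l
    simp [-End.mul_apply, show (x * y) m = 0 from c2 this.1, show (y * x) m = 0 from d2 this.2]
  · by_contra! l
    have z' := sub_eq_zero.1 z
    have : x * y = 0 := range_eq_bot.1 (le_bot_iff.1 (a3 ▸ le_inf c1 (z' ▸ d1)))
    have i' := (h.mn hs i l.1).2
    have j' := (h.mn ht j l.2).2
    exact n (by rw [i'.l (j'.r this), j'.l (i'.r (z' ▸ this)), sub_zero])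

/-- the bracket map -/
def brm (h : QS G Q) (hs : s ∈ Mn Q) (ht : t ∈ Mn Q) (e : s * (t * s) = 0) (n : s * t - t * s ≠ 0)
    (i : x ∈ h.Ee s) : h.Ee t →ₗ[k] h.Ee (s * t - t * s) :=
  ((mulLeft k x - mulRight k x).domRestrict _).codRestrict _ fun y => (h.br hs ht e n i y.2).1

theorem brm_inj (h : QS G Q) (hs : s ∈ Mn Q) (ht : t ∈ Mn Q) (e : s * (t * s) = 0) (n : s * t - t * s ≠ 0)
    (i : x ∈ h.Ee s) (x0 : x ≠ 0) : Function.Injective (h.brm hs ht e n i) :=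
  (injective_iff_map_eq_zero _).2 fun y z =>
    Subtype.ext (((h.br hs ht e n i y.2).2 (congrArg Subtype.val z)).resolve_left x0)

theorem dim_opp (h : QS G Q) (hs : s ∈ Mn Q) (ht : t ∈ Mn Q) (n : s * (t * s) ≠ 0) :
    finrank k (h.Ee s) ≤ finrank k (h.Ee t) := by
  obtain ⟨g, hg, e, -⟩ := (h.special hs ht n).r1.exists_swap
  have hg := sup_le h.EG_le h.EG_le hg
  rw [h.cj_EG hg] at e
  exact finrank_le_finrank_of_injective (f := ((mulLeft k g.1 ∘ₗ mulRight k (g⁻¹).1).domRestrict _).codRestrict _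
    fun y => by simpa [mem_EG, mul_assoc] using e.le (h.un_mem (h.conj_Ee hg y.2)))
    fun a b z => Subtype.ext (by simpa using congrArg Subtype.val z)

theorem Ee_neg (h : QS G Q) (hs : s ∈ Mn Q) : h.Ee (-s) = h.Ee s :=
  h.Ee_eq hs (neg_mem (h.self hs.1)) (neg_ne_zero.2 hs.2.1)

theorem dim_br (h : QS G Q) (hs : s ∈ Mn Q) (ht : t ∈ Mn Q) (e : s * (t * s) = 0) (n : s * t - t * s ≠ 0) :
    finrank k (h.Ee (s * t - t * s)) ≤ finrank k (h.Ee t) := by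
  have e' := h.swap hs.1 ht e
  obtain ⟨a1, a2, -, a4⟩ := h.comm' hs.1 ht e' e n
  have tt := h.sq t ht.1
  have k1 := fun m => h.ker_q hs ht e n (m := m)
  have qt : (s * t - t * s) * t = 0 := by simp [sub_mul, mul_assoc, tt, e']
  have tq : t * (s * t - t * s) = 0 := by simp [mul_sub, ← mul_assoc t t, tt, e']
  generalize s * t - t * s = q at *
  obtain ⟨u, hu, e1, e2⟩ := h.exists_opp a1
  refine (h.dim_opp a1 hu (e1.symm ▸ a1.2.1)).trans ?_
  by_cases l : u * (t * u) = 0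
  swap
  · exact h.dim_opp hu ht l
  have qt' : ∀ x, q * (t * x) = 0 := fun x => by rw [← mul_assoc, qt, zero_mul]
  have f : (1 - q * u) * (t * (1 - q * u - u * q)) = 0 := LinearMap.ext fun m => by
    have : q * (1 - q * u - u * q) = 0 := by simp [mul_sub, ← mul_assoc q q, h.sq q a1.1, e1]
    obtain ⟨m', z⟩ := a4.ge (mem_sup_right (a2.le ⟨⟨_, rfl⟩, (k1 _ (LinearMap.congr_fun this m)).1⟩))
    rw [End.mul_apply, End.mul_apply, ← z, ← End.mul_apply]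
    simp [-End.mul_apply, sub_mul, mul_assoc, e1]
  have f' : q * (t * u - u * t) - (t * u - u * t) * q = -t := by
    simp [mul_sub, sub_mul, mul_assoc, qt', tq, ← mul_assoc t q,
      show u * (t * (u * q)) = 0 by simpa [mul_assoc] using congrArg (· * q) l] at f ⊢
    linear_combination (norm := abel) f
  have v0 : t * u - u * t ≠ 0 := fun z => ht.2.1 (by simpa [z] using f')
  have l' := h.swap hu.1 ht l
  refine (finrank_le_finrank_of_injective (h.brm_inj ht hu l' v0 (h.self ht.1) ht.2.1)).trans ?_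
  rw [← h.Ee_neg ht, ← f']
  exact finrank_le_finrank_of_injective (h.brm_inj a1 (h.comm' ht.1 hu l l' v0).1
    (by simp [sub_mul, mul_sub, mul_assoc, qt', tq]) (f' ▸ neg_ne_zero.2 ht.2.1) (h.self a1.1) a1.2.1)

omit [FiniteDimensional k M] in
theorem comm_un {hx hy} (e : x * (y * x) = 0) (e' : y * (x * y) = 0) : (⁅un x hx, un y hy⁆ :).1 = 1 + (x * y - y * x) := by
  simp [commutatorElement_def, mul_add, add_mul, mul_sub, sub_mul, mul_assoc, e, e', hx, hy, ← mul_assoc x x]; abel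

theorem surj (h : QS G Q) (hs : s ∈ Mn Q) (ht : t ∈ Mn Q) (e : s * (t * s) = 0) (n : s * t - t * s ≠ 0)
    {a c} (ha : a ∈ h.EG s) (a1 : a ≠ 1) (hc : c ∈ h.EG (s * t - t * s)) : ∃ b ∈ h.EG t, ⁅a, b⁆ = c := by
  obtain ⟨x, i, rfl⟩ := h.ex ha
  have inj := h.brm_inj hs ht e n i (mt (un_eq_one _).2 a1)
  obtain ⟨y, z⟩ := (injective_iff_surjective_of_finrank_eq_finrank ((finrank_le_finrank_of_injective inj).antisymm
    (h.dim_br hs ht e n))).1 inj ⟨_, hc⟩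
  refine ⟨_, h.un_mem y.2, Units.ext ?_⟩
  rw [comm_un (h.sand hs ht e i i y.2) (h.sand ht hs (h.swap hs.1 ht e) y.2 y.2 i),
    show x * y - y * x = c - 1 from congrArg Subtype.val z, add_sub_cancel]

theorem comm_eq (h : QS G Q) (hs : s ∈ Mn Q) (ht : t ∈ Mn Q) (e : s * (t * s) = 0) (n : s * t - t * s ≠ 0) :
    ⁅h.EG s, h.EG t⁆ = h.EG (s * t - t * s) := by
  refine le_antisymm (Subgroup.commutator_le.2 fun a i b j => ?_) fun c hc => ?_
  · obtain ⟨x, i', rfl⟩ := h.ex i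
    obtain ⟨y, j', rfl⟩ := h.ex j
    rw [mem_EG, comm_un (h.sand hs ht e i' i' j') (h.sand ht hs (h.swap hs.1 ht e) j' j' i'), add_sub_cancel_left]
    exact (h.br hs ht e n i' j').1
  · obtain ⟨b, hb, rfl⟩ := h.surj hs ht e n (h.un_mem (h.self hs.1)) (mt (un_eq_one _).1 hs.2.1) hc
    exact Subgroup.commutator_mem_commutator (h.un_mem (h.self hs.1)) hb

theorem t3 (h : QS G Q) (hs : s ∈ Mn Q) (ht : t ∈ Mn Q) (e : s * (t * s) = 0) (n : s * t - t * s ≠ 0) :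
    T3 h.Sg (h.EG s) (h.EG t) := by
  have z : ∀ {s t}, s ∈ Mn Q → t ∈ Mn Q → s * (t * s) = 0 → s * t - t * s ≠ 0 → ⁅⁅h.EG s, h.EG t⁆, h.EG s⁆ = ⊥ :=
    fun {s t} hs ht e n => by
      have ss := h.sq s hs.1
      rw [h.comm_eq hs ht e n]
      exact h.EG_comm fun x i y j => by
        rw [i.2.1.l (j.2.1.r (by simp [sub_mul, mul_assoc, ss, e])),
          j.2.1.l (i.2.1.r (by simp [mul_sub, ← mul_assoc s s, ss, e]))]
  have e' := h.swap hs.1 ht e
  have n' : t * s - s * t ≠ 0 := by rwa [← neg_sub, neg_ne_zero]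
  refine ⟨⟨_, (h.comm' hs.1 ht e' e n).1, h.comm_eq hs ht e n⟩, z hs ht e n,
    by rw [Subgroup.commutator_comm (h.EG s)]; exact z ht hs e' n',
    fun a i j c l => h.surj hs ht e n i j ((h.comm_eq hs ht e n).le l),
    fun b i j c l => ?_⟩
  rw [Subgroup.commutator_comm, h.comm_eq ht hs e' n'] at l
  obtain ⟨a, ha, z⟩ := h.surj ht hs e' n' i j (inv_mem l)
  exact ⟨a, ha, by rw [← commutatorElement_inv, z, inv_inv]⟩

theorem commute (h : QS G Q) (hs : s ∈ Mn Q) (ht : t ∈ Mn Q) (e : s * t = t * s) : ⁅h.EG s, h.EG t⁆ = ⊥ := by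
  have e1 : s * (t * s) = 0 := by rw [← e, ← mul_assoc, h.sq s hs.1, zero_mul]
  refine h.EG_comm fun x i y j => by_contra fun n => ?_
  have x0 : x ≠ 0 := by rintro rfl; simp at n
  have y0 : y ≠ 0 := by rintro rfl; simp at n
  exact ((h.br (h.mn hs i x0).1 (h.mn ht j y0).1 (h.sand hs ht e1 i i j) (sub_ne_zero.2 n)
    (h.Ee_eq hs i x0 ▸ h.self hs.1) (h.Ee_eq ht j y0 ▸ h.self ht.1)).2 (sub_eq_zero.2 e)).elim hs.2.1 ht.2.1

theorem tri (h : QS G Q) {A B} (hA : A ∈ h.Sg) (hB : B ∈ h.Sg) :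
    (Uni k (A ⊔ B) ∧ (⁅A, B⁆ = ⊥ ∨ T3 h.Sg A B)) ∨ (¬ Uni k (A ⊔ B) ∧ Sp A B) := by
  obtain ⟨s, hs, rfl⟩ := hA
  obtain ⟨t, ht, rfl⟩ := hB
  by_cases e : s * (t * s) = 0
  · exact .inl ⟨h.uni hs ht e, (em _).imp (h.commute hs ht) fun n => h.t3 hs ht e (sub_ne_zero.2 n)⟩
  · exact .inr ⟨h.not_uni hs ht e, h.special hs ht e⟩

end QS

end QP
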