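import Cfsg.Agent.RS.B

/-! Unipotent groups of units. -/
namespace QP
open Cfsg RS Submodule

variable (k : Type*) {R : Type*} [Field k] [Ring R] [Algebra k R]

/-- span of `g - 1` -/
def sp (H : Subgroup Rˣ) : Submodule k R := span k ((fun g : Rˣ => (g : R) - 1) '' H)

/-- unipotent -/
def Uni (H : Subgroup Rˣ) : Prop := IsNilpotent (sp k H)

variable {k} {H K D : Subgroup Rˣ} {N : Submodule k R} {g : Rˣ}

theorem mem_sp (h : g ∈ H) : (g : R) - 1 ∈ sp k H := subset_span ⟨g, h, rfl⟩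

theorem sp_le : sp k H ≤ N ↔ ∀ g ∈ H, (g : R) - 1 ∈ N := by
  simp [sp, span_le, Set.subset_def]

theorem sp_mono (h : H ≤ K) : sp k H ≤ sp k K := sp_le.2 fun _ i => mem_sp (h i)

theorem sp_mul : sp k H * sp k H ≤ sp k H := by
  rw [sp, span_mul_span, span_le]
  rintro _ ⟨_, ⟨g, i, rfl⟩, _, ⟨h, j, rfl⟩, rfl⟩
  change (g - 1 : R) * (h - 1) ∈ sp k H
  convert sub_mem (sub_mem (mem_sp (k := k) (mul_mem i j)) (mem_sp i)) (mem_sp j) using 1
  simp only [Units.val_mul]; noncomm_ring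

theorem nil_mono {N' : Submodule k R} (h : IsNilpotent N) (l : N' ≤ N) : IsNilpotent N' :=
  h.imp fun n e => le_bot_iff.1 ((pow_le_pow_left' l n).trans e.le)

theorem pow_le (h : N * N ≤ N) (n : ℕ) : N ^ (n + 1) ≤ N := by
  induction n with
  | zero => simp
  | succ n ih => rw [pow_succ]; exact (mul_le_mul_left ih _).trans h

/-- the group `1 + N` -/
def Un (h : N * N ≤ N) (h' : IsNilpotent N) : Subgroup Rˣ where
  carrier := {g | (g : R) - 1 ∈ N}
  one_mem' := by simp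
  mul_mem' {g f} i j := by
    change ((g * f : Rˣ) : R) - 1 ∈ N
    convert add_mem (add_mem (h (mul_mem_mul i j)) i) j using 1
    simp only [Units.val_mul]; noncomm_ring
  inv_mem' {g} i := by
    obtain ⟨n, hn⟩ := h'
    have e := mul_neg_geom_sum (1 - (g : R)) (n + 1)
    rw [pow_succ, (mem_bot k).1 (hn.le (pow_mem_pow N (x := 1 - g) (by simpa using N.neg_mem i) n)), zero_mul, sub_zero,
      sub_sub_cancel] at e
    rw [Set.mem_setOf_eq, Units.inv_eq_of_mul_eq_one_right e, Finset.sum_range_succ', pow_zero, add_sub_cancel_right]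
    exact sum_mem fun j _ => pow_le h j (pow_mem_pow N (by simpa using N.neg_mem i) _)

theorem le_Un (h : N * N ≤ N) (h' : IsNilpotent N) : H ≤ Un h h' ↔ sp k H ≤ N := sp_le.symm

theorem sp_iSup (h : N * N ≤ N) (h' : IsNilpotent N) {W : Set (Subgroup Rˣ)} (l : ∀ A ∈ W, sp k A ≤ N) :
    sp k (⨆ A ∈ W, A) ≤ N :=
  sp_le.2 (show _ ≤ Un h h' from iSup₂_le fun A i => sp_le.1 (l A i))

theorem sp_sup (h : N * N ≤ N) (h' : IsNilpotent N) (l : sp k H ≤ N) (l' : sp k K ≤ N) : sp k (H ⊔ K) ≤ N :=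
  sp_le.2 (show _ ≤ Un h h' from sup_le (sp_le.1 l) (sp_le.1 l'))

theorem sp_closure (h : N * N ≤ N) (h' : IsNilpotent N) {S : Set Rˣ} (l : ∀ g ∈ S, (g : R) - 1 ∈ N) :
    sp k (Subgroup.closure S) ≤ N :=
  sp_le.2 (show _ ≤ Un h h' from (Subgroup.closure_le _).2 l)

/-- normalizing a subspace -/
def Nm (N : Submodule k R) : Subgroup Rˣ where
  carrier := {g | ∀ x, x ∈ N ↔ g * x * ↑g⁻¹ ∈ N}
  one_mem' := by simp
  mul_mem' {g h} i j x := by rw [j x, i]; simp [mul_assoc]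
  inv_mem' {g} i x := by rw [i (↑g⁻¹ * x * _)]; simp [mul_assoc]

theorem le_Nm (h : ∀ g ∈ H, sp k (conjBy D g) ≤ sp k D) : H ≤ Nm (sp k D) := by
  have : ∀ g ∈ H, ∀ x ∈ sp k D, g * x * ↑g⁻¹ ∈ sp k D := fun g i x j => by
    induction j using span_induction with
    | mem _ j =>
      obtain ⟨d, j, rfl⟩ := j
      simpa [mul_sub, sub_mul] using h g i (mem_sp (cj_mem j g))
    | zero => simp
    | add _ _ _ _ a b => simpa [mul_add, add_mul] using add_mem a b
    | smul c _ _ a => simpa using smul_mem _ c a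
  exact fun g i x => ⟨this g i x, fun j => by simpa [mul_assoc] using this _ (inv_mem i) _ j⟩

theorem Uni.mono (h : Uni k H) (l : K ≤ H) : Uni k K := nil_mono h (sp_mono l)

theorem Uni.norm (h : Uni k H) (h' : Uni k D) (l : H ≤ Nm (sp k D)) : Uni k (D ⊔ H) := by
  set Y := span k ((fun g : Rˣ => (g : R)) '' H)
  set Δ := sp k D
  have c : Commute Y Δ := by
    refine le_antisymm (mul_le.2 fun y i x j => ?_) (mul_le.2 fun x j y i => ?_)
    · induction i using span_induction with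
      | mem _ i =>
        obtain ⟨g, i, rfl⟩ := i
        simpa using mul_mem_mul ((l i x).1 j) (subset_span ⟨g, i, rfl⟩ : (g : R) ∈ Y)
      | zero => simp
      | add _ _ _ _ a b => simpa [add_mul] using add_mem a b
      | smul c _ _ a => simpa using smul_mem _ c a
    · induction i using span_induction with
      | mem _ i =>
        obtain ⟨g, i, rfl⟩ := i
        simpa [← mul_assoc] using mul_mem_mul (subset_span ⟨g, i, rfl⟩ : (g : R) ∈ Y) ((l (inv_mem i) x).1 j)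
      | zero => simp
      | add _ _ _ _ a b => simpa [mul_add] using add_mem a b
      | smul c _ _ a => simpa using smul_mem _ c a
  have yy : Y * Y ≤ Y := by
    rw [span_mul_span, span_le]
    rintro _ ⟨_, ⟨g, i, rfl⟩, _, ⟨h, j, rfl⟩, rfl⟩
    exact subset_span ⟨_, mul_mem i j, rfl⟩
  have y1 : (1 : R) ∈ Y := subset_span ⟨1, one_mem _, rfl⟩
  have xy : sp k H ≤ Y := sp_le.2 fun g i => sub_mem (subset_span ⟨g, i, rfl⟩) y1
  have a1 : Y * (Y * Δ) ≤ Y * Δ := by rw [← mul_assoc]; exact mul_le_mul_left yy _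
  have a2 : Y * Δ * Y ≤ Y * Δ := by rw [mul_assoc, ← c.eq]; exact a1
  have a3 : Y * Δ * (Y * Δ) ≤ Y * Δ := by
    rw [← mul_assoc]; exact (mul_le_mul_left a2 _).trans (by rw [mul_assoc]; exact mul_le_mul_right sp_mul _)
  have b : ∀ Z ≤ Y, (Z ⊔ Y * Δ) * (sp k H ⊔ Y * Δ) ≤ Z * sp k H ⊔ Y * Δ := fun Z i => by
    rw [Submodule.sup_mul, Submodule.mul_sup, Submodule.mul_sup]
    exact sup_le (sup_le_sup_left ((mul_le_mul_left i _).trans a1) _)
      (le_sup_of_le_right (sup_le ((mul_le_mul_right xy _).trans a2) a3))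
  have n : IsNilpotent (sp k H ⊔ Y * Δ) := by
    obtain ⟨n, hn⟩ := h
    have : ∀ m, (sp k H ⊔ Y * Δ) ^ (m + 1) ≤ sp k H ^ (m + 1) ⊔ Y * Δ := fun m => by
      induction m with
      | zero => simp
      | succ m ih =>
        rw [pow_succ, pow_succ _ (m + 1)]
        exact (mul_le_mul_left ih _).trans (b _ ((pow_le sp_mul m).trans xy))
    have := this n
    rw [pow_succ (sp k H), hn, zero_mul, Submodule.zero_eq_bot, bot_sup_eq] at this
    exact (nil_mono (c.isNilpotent_mul_left h') this).of_pow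
  exact nil_mono n (sp_sup ((b _ xy).trans (sup_le_sup_right sp_mul _)) n
    (le_sup_of_le_right fun x i => by simpa using mul_mem_mul y1 i) le_sup_left)

theorem step {W U V : Set (Subgroup Rˣ)} (hW : ∀ A ∈ W, ∀ B ∈ W, ∀ a ∈ A, conjBy B a ∈ W)
    (hD : U ⊆ W) (hP : V ⊆ W) {P : Subgroup Rˣ} (eD : D = ⨆ A ∈ U, A) (eP : P = ⨆ A ∈ V, A) (l : D ≤ P)
    (u : Uni k P) (n : ¬ sp k P ≤ sp k D) : ∃ A ∈ W, A ≤ P ∧ ¬ sp k A ≤ sp k D ∧ A ≤ Nm (sp k D) := by
  by_contra! hc
  have uD := u.mono l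
  have lP : ∀ A ∈ V, A ≤ P := fun A i => eP ▸ le_iSup₂_of_le A i le_rfl
  have lD : ∀ A ∈ U, A ≤ D := fun A i => eD ▸ le_iSup₂_of_le A i le_rfl
  have : ∀ j, ∃ A ∈ W, A ≤ P ∧ ¬ sp k A ≤ sp k D ∧ sp k A ≤ sp k D ⊔ sp k P ^ (j + 1) := fun j => by
    induction j with
    | zero =>
      by_contra! h
      exact n (eP ▸ sp_iSup sp_mul uD fun A i => by_contra fun e => h A (hP i) (lP A i) e
        (le_sup_of_le_right (by simpa using sp_mono (lP A i))))
    | succ j ih =>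
      obtain ⟨A, hA, h1, h2, h3⟩ := ih
      by_contra! h
      refine hc A hA h1 h2 (le_Nm fun g hg => ?_)
      rw [eD, conjBy, Subgroup.map_iSup]
      simp only [Subgroup.map_iSup]
      rw [← eD]
      refine (le_Un sp_mul uD).1 (iSup₂_le fun B hB => (le_Un _ _).2 ?_)
      by_contra e
      refine h _ (hW A hA B (hD hB) g hg) (cj_le ((lD B hB).trans l) (h1 hg)) e (sp_le.2 ?_)
      rintro _ ⟨b, hb, rfl⟩
      have dp := sp_mono (k := k) l
      have pl := pow_le (sp_mul (k := k) (H := P)) j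
      have a1 : (sp k D ⊔ sp k P ^ (j + 1)) * (sp k D ⊔ sp k P ^ (j + 2)) ≤ sp k D ⊔ sp k P ^ (j + 2) := by
        have : sp k P * sp k P ^ (j + 2) ≤ sp k P ^ (j + 2) := by
          rw [pow_succ', ← mul_assoc]; exact mul_le_mul_left sp_mul _
        rw [Submodule.mul_sup, Submodule.sup_mul]
        exact sup_le (sup_le_sup sp_mul (mul_le_mul_right dp _))
          (le_sup_of_le_right ((mul_le_mul_left (sup_le dp pl) _).trans this))
      have a2 : sp k D * (sp k D ⊔ sp k P ^ (j + 1)) ≤ sp k D ⊔ sp k P ^ (j + 2) := by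
        rw [Submodule.mul_sup, pow_succ' _ (j + 1)]
        exact sup_le_sup sp_mul (mul_le_mul_left dp _)
      have x := h3 (mem_sp hg)
      have z := mem_sp (k := k) (lD B hB hb)
      have y := a2 (mul_mem_mul z (h3 (mem_sp (inv_mem hg))))
      convert add_mem (add_mem (mem_sup_left z) y) (a1 (mul_mem_mul x (add_mem (mem_sup_left z) y))) using 1
      have := g.mul_inv
      simp only [MulEquiv.coe_toMonoidHom, MulAut.conj_apply, Units.val_mul]
      linear_combination (norm := noncomm_ring) this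
  obtain ⟨m, hm⟩ := u
  obtain ⟨A, -, -, i, j⟩ := this m
  rw [pow_succ, hm, zero_mul] at j
  exact i (by simpa using j)

theorem baer [FiniteDimensional k R] {W : Set (Subgroup Rˣ)} (hW : ∀ A ∈ W, ∀ B ∈ W, ∀ a ∈ A, conjBy B a ∈ W)
    (hU : ∀ A ∈ W, ∀ B ∈ W, Uni k (A ⊔ B)) : Uni k (⨆ A ∈ W, A) := by
  let G : Subgroup Rˣ → Prop := fun P => ∃ U ⊆ W, P = ⨆ A ∈ U, A
  have gs : ∀ P, G P → ∀ A ∈ W, G (P ⊔ A) := by
    rintro _ ⟨U, i, rfl⟩ A j
    exact ⟨insert A U, Set.insert_subset j i, by rw [iSup_insert, sup_comm]⟩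
  have key : ∀ Δ : Submodule k R, ∀ D, sp k D = Δ → G D → ∀ P Q, G P → G Q → D ≤ P → D ≤ Q → Uni k P → Uni k Q →
      Uni k (P ⊔ Q) := fun Δ => by
    induction Δ using WellFoundedGT.induction with
    | ind Δ ih =>
    rintro D rfl ⟨U, hU1, eD⟩ P Q ⟨V, hV, eP⟩ ⟨V', hV', eQ⟩ l l' u u'
    by_cases n : sp k P ≤ sp k D
    · exact nil_mono u' (sp_sup sp_mul u' (n.trans (sp_mono l')) le_rfl)
    by_cases n' : sp k Q ≤ sp k D
    · exact nil_mono u (sp_sup sp_mul u le_rfl (n'.trans (sp_mono l)))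
    obtain ⟨A, a1, a2, a3, a4⟩ := step hW hU1 hV eD eP l u n
    obtain ⟨B, b1, b2, b3, b4⟩ := step hW hU1 hV' eD eQ l' u' n'
    have gD : G D := ⟨U, hU1, eD⟩
    have u1 := (hU A a1 B b1).norm (u.mono l) (sup_le a4 b4)
    have lt : ∀ A, ¬ sp k A ≤ sp k D → sp k D < sp k (D ⊔ A) := fun A i =>
      lt_of_le_not_ge (sp_mono le_sup_left) fun j => i ((sp_mono le_sup_right).trans j)
    have u2 := ih _ (lt A a3) _ rfl (gs D gD A a1) P _ ⟨V, hV, eP⟩ (gs _ (gs D gD A a1) B b1) (sup_le l a2)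
      le_sup_left u (sup_assoc D A B ▸ u1)
    exact (ih _ (lt B b3) _ rfl (gs D gD B b1) _ Q (gs _ ⟨V, hV, eP⟩ B b1) ⟨V', hV', eQ⟩
      (sup_le_sup_right l _) (sup_le l' b2) (u2.mono (by order)) u').mono (by order)
  have g0 : G ⊥ := ⟨∅, by simp, by simp⟩
  have u0 : Uni k (⊥ : Subgroup Rˣ) := ⟨1, by simp [sp]⟩
  obtain ⟨_, ⟨P, ⟨i, j⟩, rfl⟩, h⟩ := WellFounded.has_min (wellFounded_gt (α := Submodule k R))
    (sp k '' {P | G P ∧ Uni k P}) ⟨_, ⊥, ⟨g0, u0⟩, rfl⟩
  refine nil_mono j (sp_iSup sp_mul j fun A hA => (sp_mono le_sup_right).trans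
    (eq_of_le_of_not_lt (sp_mono le_sup_left) ?_ : sp k P = sp k (P ⊔ A)).ge)
  exact h _ ⟨_, ⟨gs P i A hA, key _ _ rfl g0 _ _ i (by simpa using gs _ g0 A hA) bot_le bot_le j
    (by simpa using hU A hA A hA)⟩, rfl⟩

variable {M : Type*} [AddCommGroup M] [Module k M] {G H N : Subgroup (Module.End k M)ˣ}

theorem uni_iff : IsUnipotentOn H ↔ Uni k H := by
  refine exists_congr fun n => ⟨fun h => ?_, fun h l i j => ?_⟩
  · rw [sp, span_pow, Submodule.zero_eq_bot, span_eq_bot]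
    intro x hx
    obtain ⟨f, rfl⟩ := Set.mem_pow.1 hx
    choose g i j using fun a => (f a).2
    simpa [← j, ← List.map_eq_flatMap, List.map_ofFn, Function.comp_def] using h (List.ofFn g) (by simpa [List.mem_ofFn] using i) (by simp)
  · subst j
    refine (mem_bot k).1 (h.le ?_)
    clear h
    induction l with
    | nil => exact one_le.1 le_rfl
    | cons g l ih =>
      rw [List.length_cons, pow_succ']
      exact mul_mem_mul (mem_sp (i g (by simp))) (ih fun g j => i g (by simp [j]))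

theorem Uni.cj {H : Subgroup Rˣ} (h : Uni k H) (g : Rˣ) : Uni k (conjBy H g) := by
  let φ : R ≃ₐ[k] R := MulSemiringAction.toAlgEquiv k R (ConjAct.toConjAct g)
  obtain ⟨n, hn⟩ := h
  refine nil_mono (N := (sp k H).map (φ : R →ₐ[k] R).toLinearMap) ⟨n + 1, ?_⟩ (sp_le.2 ?_)
  · rw [← Submodule.map_pow, pow_succ, hn]; simp
  · rintro _ ⟨x, i, rfl⟩
    exact ⟨_, mem_sp i, by simp [φ, ConjAct.units_smul_def, mul_sub, sub_mul]⟩

theorem triv (hG : IsIrreducibleFor G) (u : Uni k H) (n : ∀ g ∈ G, conjBy H g ≤ H) : H = ⊥ := by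
  rcases hG.2 (sp k H • ⊤) (fun g i w j => smul_induction_on j (fun x a m _ => by
      simpa [← Module.End.mul_apply, mul_assoc] using
        smul_mem_smul ((le_Nm (fun g i => sp_mono (n g i)) i x).1 a) (mem_top (x := g.1 m)))
    fun x y a b => by simpa using add_mem a b) with e | e
  · refine eq_bot_iff.2 fun g i => Units.ext (sub_eq_zero.1 (LinearMap.ext fun m => ?_))
    exact (mem_bot k).1 (e.le (smul_mem_smul (mem_sp i) mem_top))
  · obtain ⟨m, hm⟩ := u
    obtain ⟨v, hv⟩ := hG.1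
    have : ∀ m, (sp k H ^ m • ⊤ : Submodule k M) = ⊤ := fun m => by
      induction m with
      | zero => exact Submodule.one_smul _
      | succ m ih => rw [pow_succ, ← smul_eq_mul, Submodule.smul_assoc, e, ih]
    exact absurd (by simpa [hm] using (this m).ge (mem_top (x := v))) hv

theorem rad [FiniteDimensional k M] (hG : IsIrreducibleFor G) (n : ∀ g ∈ G, conjBy N g = N) (l : H ≤ N) (u : Uni k H)
    (m : ∀ g ∈ N, conjBy H g = H) : H = ⊥ := by
  let W := {U | U ≤ N ∧ Uni k U ∧ ∀ g ∈ N, conjBy U g = U}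
  refine le_bot_iff.1 ((le_iSup₂_of_le H ⟨l, u, m⟩ le_rfl).trans (triv hG (baer (W := W)
    (fun A i B j a ha => (j.2.2 a (i.1 ha)).symm ▸ j) fun A i B j => j.2.1.norm i.2.1
      (le_Nm fun g e => (congrArg _ (i.2.2 g (j.1 e))).le)) fun g hg => ?_).le)
  rw [conjBy, Subgroup.map_iSup]
  refine iSup_le fun U => ?_
  rw [Subgroup.map_iSup]
  refine iSup_le fun i => le_iSup₂_of_le _ ⟨(cj_mono i.1).trans (n g hg).le, i.2.1.cj g, fun x j => ?_⟩ le_rfl
  rw [cj_cj, ← mul_inv_cancel_left g (x * g), ← cj_cj, ← mul_assoc, i.2.2 _ (mem_cj.1 ((n g hg).ge j))]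

end QP
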